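import Cfsg.Agent.Lib.OOL.Tate
import Cfsg.Agent.Lib.OOL.CNTri
import Cfsg.Agent.Lib.H3.TransferTools
import Cfsg.Agent.S0077
import Cfsg.Agent.Lib.H3.ConjTools

set_option autoImplicit false
set_option linter.unusedSectionVars false
set_option linter.style.haveILetI false
set_option linter.unusedVariables false

open Pointwise
open scoped commutatorElement IsMulCommutative
open Subgroup CfsgLib.Solv Cfsg

namespace CfsgLib.OOL

universe u v

/-- A twisted homomorphism. -/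
theorem exists_twist {A : Type*} {B : Type*} [Group A] [Group B] (f g : A →* B)
    (hc : ∀ a y, g a * y = y * g a) : ∃ h : A →* B, ∀ a, h a = f a * (g a)⁻¹ := by
  refine ⟨MonoidHom.mk' (fun a => f a * (g a)⁻¹) ?_, fun a => rfl⟩
  intro a b
  rw [map_mul, map_mul, mul_inv_rev]
  have hinv : ∀ x y, (g x)⁻¹ * y = y * (g x)⁻¹ := by
    intro x y
    calc (g x)⁻¹ * y = (g x)⁻¹ * (y * g x) * (g x)⁻¹ := by group
      _ = (g x)⁻¹ * (g x * y) * (g x)⁻¹ := by rw [hc x y]
      _ = y * (g x)⁻¹ := by group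
  calc f a * f b * ((g b)⁻¹ * (g a)⁻¹) = f a * ((f b * (g b)⁻¹) * (g a)⁻¹) := by group
    _ = f a * ((g a)⁻¹ * (f b * (g b)⁻¹)) := by rw [hinv a (f b * (g b)⁻¹)]
    _ = _ := by group

section

variable {T : Type v} [Group T] [Finite T] {p : ℕ} [hpf : Fact p.Prime]

/-- The kernel of `T/K₁ → T/K`, when it has order `p`, is central of exponent `p`. -/
theorem quot_ker_facts (hT : IsPGroup p T) (K K₁ : Subgroup T) [hKn : K.Normal] [hK₁n : K₁.Normal] (hK₁K : K₁ ≤ K)
    (hcard : Nat.card K = p * Nat.card K₁) :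
    ∀ (x : T ⧸ K₁), QuotientGroup.map K₁ K (MonoidHom.id T) (by simpa using hK₁K) x = 1 →
    x ^ p = 1 ∧ ∀ y : T ⧸ K₁, x * y = y * x := by
  classical
  have hpp : p.Prime := hpf.out
  set Q₁ := T ⧸ K₁ with hQ₁
  set π : Q₁ →* T ⧸ K := QuotientGroup.map K₁ K (MonoidHom.id T) (by simpa using hK₁K) with hπ
  have hπs : Function.Surjective π := by
    intro q
    obtain ⟨u, rfl⟩ := QuotientGroup.mk'_surjective K q
    exact ⟨(u : Q₁), rfl⟩
  have hQp : IsPGroup p Q₁ := hT.to_quotient K₁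
  set W₀ : Subgroup Q₁ := π.ker with hW₀
  haveI hW₀n : W₀.Normal := MonoidHom.normal_ker π
  have hcW₀ : Nat.card W₀ = p := by
    have h1 : Nat.card Q₁ = Nat.card W₀ * Nat.card (T ⧸ K) := by
      rw [Subgroup.card_eq_card_quotient_mul_card_subgroup W₀, mul_comm]
      congr 1
      exact Nat.card_congr (QuotientGroup.quotientKerEquivOfSurjective π hπs).toEquiv
    have h2 := Subgroup.card_eq_card_quotient_mul_card_subgroup K₁
    have h3 := Subgroup.card_eq_card_quotient_mul_card_subgroup K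
    have hpos : 0 < Nat.card (T ⧸ K) * Nat.card K₁ := Nat.mul_pos Nat.card_pos Nat.card_pos
    apply Nat.eq_of_mul_eq_mul_right hpos
    calc Nat.card W₀ * (Nat.card (T ⧸ K) * Nat.card K₁) = Nat.card Q₁ * Nat.card K₁ := by rw [h1]; ring
      _ = Nat.card T := h2.symm
      _ = Nat.card (T ⧸ K) * (p * Nat.card K₁) := by rw [h3, hcard]
      _ = p * (Nat.card (T ⧸ K) * Nat.card K₁) := by ring
  intro x hx
  have hxW : x ∈ W₀ := MonoidHom.mem_ker.mpr hx
  constructor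
  · have h1 := Subgroup.orderOf_dvd_natCard W₀ hxW
    rw [hcW₀] at h1
    exact orderOf_dvd_iff_pow_eq_one.mp h1
  · haveI hnil : Group.IsNilpotent Q₁ := hQp.isNilpotent
    have hne : W₀ ≠ ⊥ := by
      intro h
      rw [h, Subgroup.card_bot] at hcW₀
      exact hpp.one_lt.ne hcW₀
    have h1 := normal_inf_center_ne_bot W₀ hne
    have h2 : Nat.card (W₀ ⊓ center Q₁ : Subgroup Q₁) ∣ p := by
      rw [← hcW₀]
      exact Subgroup.card_dvd_of_le inf_le_left
    have h3 : Nat.card (W₀ ⊓ center Q₁ : Subgroup Q₁) = p := by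
      rcases (Nat.dvd_prime hpp).mp h2 with h | h
      · exact absurd (Subgroup.card_eq_one.mp h) h1
      · exact h
    have h4 : W₀ ⊓ center Q₁ = W₀ := Subgroup.eq_of_le_of_card_ge inf_le_left (by rw [h3, hcW₀])
    intro y
    have h5 : x ∈ W₀ ⊓ center Q₁ := by rw [h4]; exact hxW
    exact ((Subgroup.mem_center_iff.mp h5.2) y).symm

end

variable {G : Type u} [Group G] [Finite G] {p : ℕ} [hpf : Fact p.Prime]

/-- One lifting step in Grün's second theorem. -/
theorem grun_lift (T : Subgroup G) (hTp : IsPGroup p T) (hTi : ¬ p ∣ T.index) (V : Subgroup G) (hPV : T ≤ V)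
    (hG : ∀ x (hx : x ∈ T), x ∈ commutator G → (⟨x, hPV hx⟩ : V) ∈ commutator V)
    (K K₁ : Subgroup T) [hKn : K.Normal] [hK₁n : K₁.Normal] (hK₁K : K₁ ≤ K)
    (hcard : Nat.card K = p * Nat.card K₁)
    (hR : ∀ u : T, (u : G) ∈ (pResidual p V).map V.subtype → u ∈ K₁)
    (φ : G →* T ⧸ K) (hφ : ∀ u : T, φ u = (u : T ⧸ K)) :
    ∃ φ₁ : G →* T ⧸ K₁, ∀ u : T, φ₁ u = (u : T ⧸ K₁) := by
  classical
  have hpp : p.Prime := hpf.out
  let ι : T →* G := T.subtype
  have hιr : ι.range = T := Subgroup.range_subtype T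
  obtain ⟨φ', hφ'⟩ := gaschutz_lift hTp ι T.subtype_injective (by rw [hιr]; exact hTi) K K₁ hK₁K hcard φ hφ
  set Q₁ := T ⧸ K₁ with hQ₁
  set π : Q₁ →* T ⧸ K := QuotientGroup.map K₁ K (MonoidHom.id T) (by simpa using hK₁K) with hπ
  have hπmk : ∀ u : T, π (u : Q₁) = (u : T ⧸ K) := fun u => rfl
  have hQp : IsPGroup p Q₁ := hTp.to_quotient K₁
  have hfacts : ∀ x : Q₁, π x = 1 → x ^ p = 1 ∧ ∀ y : Q₁, x * y = y * x := 
    quot_ker_facts hTp K K₁ hK₁K hcard
  -- the canonical homomorphism on `V`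
  set Res := pResidual p V with hRes
  haveI hResn : Res.Normal := CfsgLib.Tr.pResidual_normal p V
  let s : T →* V ⧸ Res := (QuotientGroup.mk' Res).comp (Subgroup.inclusion hPV)
  have hVp : IsPGroup p (V ⧸ Res) := CfsgLib.Tr.isPGroup_quotient_pResidual p le_rfl
  have hs : Function.Surjective s := by
    rw [← MonoidHom.range_eq_top]
    have h1 : s.range = (T.subgroupOf V).map (QuotientGroup.mk' Res) := by
      ext x
      constructor
      · rintro ⟨u, rfl⟩
        exact ⟨Subgroup.inclusion hPV u, u.2, rfl⟩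
      · rintro ⟨v, hv, rfl⟩
        exact ⟨⟨v, hv⟩, rfl⟩
    have h2 : s.range.index ∣ (T.subgroupOf V).index := by
      rw [h1]
      exact Subgroup.index_map_dvd _ (QuotientGroup.mk'_surjective Res)
    have h3 : (T.subgroupOf V).index ∣ T.index := ⟨V.index, (Subgroup.relIndex_mul_index hPV).symm⟩
    have h4 : ¬ p ∣ s.range.index := fun hd => hTi (hd.trans (h2.trans h3))
    obtain ⟨a, ha⟩ := IsPGroup.iff_card.mp hVp
    have h5 : s.range.index ∣ p ^ a := by
      rw [← ha]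
      exact Subgroup.index_dvd_card _
    obtain ⟨j, -, hj⟩ := (Nat.dvd_prime_pow hpp).mp h5
    have hj0 : j = 0 := by
      by_contra hne
      exact h4 (by rw [hj]; exact dvd_pow_self p hne)
    rw [hj0, pow_zero] at hj
    exact Subgroup.index_eq_one.mp hj
  have hsk : s.ker ≤ K₁ := by
    intro u hu
    apply hR
    have h1 : (Subgroup.inclusion hPV u : V) ∈ Res := (QuotientGroup.eq_one_iff _).mp hu
    exact ⟨_, h1, rfl⟩
  let e := QuotientGroup.quotientKerEquivOfSurjective s hs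
  let m : T ⧸ s.ker →* Q₁ := QuotientGroup.map s.ker K₁ (MonoidHom.id T) (by simpa using hsk)
  let ρ : V →* Q₁ := m.comp (e.symm.toMonoidHom.comp (QuotientGroup.mk' Res))
  have hρu : ∀ u : T, ρ (Subgroup.inclusion hPV u) = (u : Q₁) := by
    intro u
    have h1 : e (u : T ⧸ s.ker) = ((Subgroup.inclusion hPV u : V) : V ⧸ Res) := rfl
    show m (e.symm ((Subgroup.inclusion hPV u : V) : V ⧸ Res)) = _
    rw [← h1, MulEquiv.symm_apply_apply]
    rfl
  have hρR : ∀ r ∈ Res, ρ r = 1 := by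
    intro r hr
    show m (e.symm ((r : V) : V ⧸ Res)) = 1
    rw [(QuotientGroup.eq_one_iff r).mpr hr, map_one, map_one]
  have hφ'R : ∀ r ∈ Res, φ' (r : G) = 1 := by
    have h1 : (φ'.comp V.subtype).ker.index ∣ Nat.card Q₁ := by
      rw [Subgroup.index_ker]
      exact Subgroup.card_subgroup_dvd_card _
    obtain ⟨a, ha⟩ := IsPGroup.iff_card.mp hQp
    rw [ha] at h1
    obtain ⟨j, -, hj⟩ := (Nat.dvd_prime_pow hpp).mp h1
    haveI : (φ'.comp V.subtype).ker.Normal := MonoidHom.normal_ker _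
    have h2 := CfsgLib.Trans.pResidual_le_of_index (p := p) (φ'.comp V.subtype).ker hj
    intro r hr
    exact MonoidHom.mem_ker.mp (h2 hr)
  -- decomposition of elements of `V`
  have hdec : ∀ v : V, ∃ r ∈ Res, ∃ u : T, v = r * Subgroup.inclusion hPV u := by
    intro v
    obtain ⟨u, hu⟩ := hs ((v : V) : V ⧸ Res)
    refine ⟨v * (Subgroup.inclusion hPV u)⁻¹, ?_, u, by group⟩
    have h1 : ((Subgroup.inclusion hPV u : V) : V ⧸ Res) = (v : V ⧸ Res) := hu
    have h2 : (Subgroup.inclusion hPV u)⁻¹ * v ∈ Res := QuotientGroup.eq.mp h1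
    have h3 : v * (Subgroup.inclusion hPV u)⁻¹ = (Subgroup.inclusion hPV u) * ((Subgroup.inclusion hPV u)⁻¹ * v) * (Subgroup.inclusion hPV u)⁻¹ := by group
    rw [h3]
    exact hResn.conj_mem _ h2 _
  -- the defect on `T`
  have haT : ∀ u : T, π (φ' u * (u : Q₁)⁻¹) = 1 := by
    intro u
    rw [map_mul, map_inv, hφ', hφ, hπmk, mul_inv_cancel]
  -- the defect on `V`
  have haV : ∀ v : V, π (φ' v * (ρ v)⁻¹) = 1 := by
    intro v
    obtain ⟨r, hr, u, rfl⟩ := hdec v
    have h1 : φ' ((r * Subgroup.inclusion hPV u : V) : G) = φ' (u : G) := by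
      have : ((r * Subgroup.inclusion hPV u : V) : G) = (r : G) * (u : G) := rfl
      rw [this, map_mul, hφ'R r hr, one_mul]
    rw [h1, map_mul ρ, hρR r hr, one_mul, hρu]
    exact haT u
  obtain ⟨αV, hαV⟩ : ∃ αV : V →* Q₁, ∀ v, αV v = φ' v * (ρ v)⁻¹ := by
    refine ⟨MonoidHom.mk' (fun v => φ' v * (ρ v)⁻¹) ?_, fun v => rfl⟩
    intro a b
    have h1 := (hfacts _ (haV b)).2 (ρ a)⁻¹
    have e1 : ((a * b : V) : G) = (a : G) * (b : G) := rfl
    rw [map_mul ρ, e1, map_mul φ', mul_inv_rev]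
    calc φ' a * φ' b * ((ρ b)⁻¹ * (ρ a)⁻¹) = φ' a * ((φ' b * (ρ b)⁻¹) * (ρ a)⁻¹) := by group
      _ = φ' a * ((ρ a)⁻¹ * (φ' b * (ρ b)⁻¹)) := by rw [h1]
      _ = _ := by group
  have hαVc : ∀ v y, αV v * y = y * αV v := fun v y => by
    rw [hαV]; exact (hfacts _ (haV v)).2 y
  have hαVcomm : commutator V ≤ αV.ker := by
    rw [commutator_def, Subgroup.commutator_le]
    intro a _ b _
    rw [MonoidHom.mem_ker, map_commutatorElement, commutatorElement_eq_one_iff_mul_comm]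
    exact hαVc a (αV b)
  -- the defect vanishes on `T ∩ G'`
  have hvan : ∀ u : T, (u : G) ∈ commutator G → φ' u = (u : Q₁) := by
    intro u hu
    have h1 := hαVcomm (hG u u.2 hu)
    have h2 : αV ⟨u, hPV u.2⟩ = 1 := MonoidHom.mem_ker.mp h1
    rw [hαV] at h2
    have h3 : ρ ⟨u, hPV u.2⟩ = (u : Q₁) := hρu u
    rw [h3] at h2
    exact mul_inv_eq_one.mp h2
  -- the central group
  set W₀ : Subgroup Q₁ := π.ker with hW₀
  have hW₀c : ∀ a ∈ W₀, ∀ b : Q₁, a * b = b * a := fun a ha b => (hfacts a ha).2 b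
  letI : CommGroup W₀ := { (inferInstance : Group W₀) with
    mul_comm := fun a b => Subtype.ext (hW₀c a a.2 b) }
  obtain ⟨α, hα⟩ : ∃ α : T →* W₀, ∀ u, (α u : Q₁) = φ' u * (u : Q₁)⁻¹ := by
    refine ⟨MonoidHom.mk' (fun u => ⟨φ' u * (u : Q₁)⁻¹, haT u⟩) ?_, fun u => rfl⟩
    intro a b
    apply Subtype.ext
    have h1 := (hfacts _ (haT b)).2 (a : Q₁)⁻¹
    show φ' ((a : G) * (b : G)) * (((a * b : T) : Q₁))⁻¹ = (φ' a * (a : Q₁)⁻¹) * (φ' b * (b : Q₁)⁻¹)
    have h2 : ((a * b : T) : Q₁) = (a : Q₁) * (b : Q₁) := rfl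
    rw [h2, map_mul, mul_inv_rev]
    calc φ' a * φ' b * ((b : Q₁)⁻¹ * (a : Q₁)⁻¹) = φ' a * ((φ' b * (b : Q₁)⁻¹) * (a : Q₁)⁻¹) := by group
      _ = φ' a * ((a : Q₁)⁻¹ * (φ' b * (b : Q₁)⁻¹)) := by rw [h1]
      _ = _ := by group
  have hαp : ∀ u, (α u) ^ p = 1 := fun u => Subtype.ext (by
    have := (hfacts _ (haT u)).1
    rw [← hα] at this
    exact this)
  have hαG : ∀ u : T, (u : G) ∈ commutator G → α u = 1 := by
    intro u hu
    apply Subtype.ext
    rw [hα, hvan u hu, mul_inv_cancel]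
    rfl
  -- stability
  have hstab : ∀ (u : T) (g : G) (h : g⁻¹ * (u : G) * g ∈ T), α ⟨g⁻¹ * u * g, h⟩ = α u := by
    intro u g h
    have h1 : ((⟨g⁻¹ * u * g, h⟩ : T) * u⁻¹ : T) ∈ α.ker := by
      apply MonoidHom.mem_ker.mpr
      apply hαG
      show g⁻¹ * (u : G) * g * (u : G)⁻¹ ∈ commutator G
      have := Subgroup.commutator_mem_commutator (H₁ := ⊤) (H₂ := ⊤) (Subgroup.mem_top g⁻¹) (Subgroup.mem_top (u : G))
      rw [commutator_def]
      simpa [commutatorElement_def] using this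
    have h2 := MonoidHom.mem_ker.mp h1
    rw [map_mul, map_inv] at h2
    exact mul_inv_eq_one.mp h2
  -- transfer
  let τ : G →* W₀ := MonoidHom.transfer α
  have hτ : ∀ u : T, τ u = (α u) ^ T.index := by
    intro u
    have := CfsgLib.Tr.transfer_eq_pow_of_forall α (u : G) u.2 (by
      intro k g₀ hk
      have h1 : g₀⁻¹ * (u : G) ^ k * g₀ = g₀⁻¹ * ((u ^ k : T) : G) * g₀ := by simp
      have h2 : g₀⁻¹ * ((u ^ k : T) : G) * g₀ ∈ T := h1 ▸ hk
      have h3 := hstab (u ^ k) g₀ h2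
      rw [map_pow] at h3
      rw [← h3]
      congr 2)
    exact this
  obtain ⟨c, hc⟩ : ∃ c : ℕ, T.index * c ≡ 1 [MOD p] := by
    have hcop : Nat.Coprime T.index p := ((Nat.Prime.coprime_iff_not_dvd hpp).mpr hTi).symm
    obtain ⟨c, -, hc⟩ := Nat.exists_mul_mod_eq_one_of_coprime hcop hpp.one_lt
    exact ⟨c, by rw [Nat.ModEq, hc, Nat.mod_eq_of_lt hpp.one_lt]⟩
  let β : G →* W₀ := (powMonoidHom c).comp τ
  have hβ : ∀ u : T, β u = α u := by
    intro u
    show (τ u) ^ c = α u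
    rw [hτ, ← pow_mul]
    have := pow_eq_pow_mod (T.index * c) (hαp u)
    rw [this, hc, Nat.mod_eq_of_lt hpp.one_lt, pow_one]
  obtain ⟨φ₁, hφ₁⟩ := exists_twist φ' (W₀.subtype.comp β) (fun a y => hW₀c _ (β a).2 y)
  refine ⟨φ₁, fun u => ?_⟩
  rw [hφ₁]
  show φ' u * ((β u : W₀) : Q₁)⁻¹ = _
  rw [hβ, hα]
  have h1 := (hfacts _ (haT u)).2 (u : Q₁)
  have key : ∀ a b c : Q₁, a = b * c → b * c = c * b → a * b⁻¹ = c := by
    intro a b c h1 h2
    rw [h1, h2]
    group
  exact key _ _ _ (by group) h1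

/-- **S0078**: Grün's second theorem. -/
theorem grun_second (P : Sylow p G)
    (hn : ∀ Q : Sylow p G, (P : Subgroup G) ⊓ Subgroup.centralizer (P : Set G) ≤ (Q : Subgroup G) →
      (Q : Subgroup G) ⊓ Subgroup.centralizer (Q : Set G) = (P : Subgroup G) ⊓ Subgroup.centralizer (P : Set G))
    (V : Subgroup G)
    (hV : Subgroup.normalizer (((P : Subgroup G) ⊓ Subgroup.centralizer (P : Set G) : Subgroup G) : Set G) ≤ V) :
    (P : Subgroup G) ⊓ pResidual p G = (P : Subgroup G) ⊓ (pResidual p V).map V.subtype := by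
  classical
  have hpp : p.Prime := hpf.out
  set Z : Subgroup G := (P : Subgroup G) ⊓ Subgroup.centralizer (P : Set G) with hZ
  have hZC : Z ≤ centralizer (P : Set G) := inf_le_right
  have hWC : IsWeaklyClosed Z P := by
    refine ⟨inf_le_left, ?_⟩
    intro g hg
    -- `Z ≤ g⁻¹ P g`
    let Q : Sylow p G := (MulAut.conj g⁻¹) • P
    have hQ : (Q : Subgroup G) = (P : Subgroup G).map (MulAut.conj g⁻¹).toMonoidHom := rfl
    have hZQ : Z ≤ (Q : Subgroup G) := by
      intro z hz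
      rw [hQ]
      refine ⟨g * z * g⁻¹, hg ⟨z, hz, rfl⟩, ?_⟩
      show g⁻¹ * (g * z * g⁻¹) * g⁻¹⁻¹ = z
      group
    have h1 := hn Q hZQ
    have h2 : (Q : Subgroup G) ⊓ centralizer (Q : Set G) = Z.map (MulAut.conj g⁻¹).toMonoidHom := by
      ext x
      constructor
      · rintro ⟨⟨y, hy, rfl⟩, hxc⟩
        refine ⟨y, ⟨hy, ?_⟩, rfl⟩
        refine Subgroup.mem_centralizer_iff.mpr ?_
        intro w hw
        have h3 := Subgroup.mem_centralizer_iff.mp hxc ((MulAut.conj g⁻¹) w) ⟨w, hw, rfl⟩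
        have h3' : g⁻¹ * w * g * (g⁻¹ * y * g) = g⁻¹ * y * g * (g⁻¹ * w * g) := by simpa using h3
        calc w * y = g * (g⁻¹ * w * g * (g⁻¹ * y * g)) * g⁻¹ := by group
          _ = g * (g⁻¹ * y * g * (g⁻¹ * w * g)) * g⁻¹ := by rw [h3']
          _ = y * w := by group
      · rintro ⟨y, ⟨hy, hyc⟩, rfl⟩
        refine ⟨⟨y, hy, rfl⟩, ?_⟩
        refine Subgroup.mem_centralizer_iff.mpr ?_
        rintro _ ⟨w, hw, rfl⟩
        have h3 := Subgroup.mem_centralizer_iff.mp hyc w hw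
        show g⁻¹ * w * g⁻¹⁻¹ * (g⁻¹ * y * g⁻¹⁻¹) = g⁻¹ * y * g⁻¹⁻¹ * (g⁻¹ * w * g⁻¹⁻¹)
        calc g⁻¹ * w * g⁻¹⁻¹ * (g⁻¹ * y * g⁻¹⁻¹) = g⁻¹ * (w * y) * g⁻¹⁻¹ := by group
          _ = g⁻¹ * (y * w) * g⁻¹⁻¹ := by rw [h3]
          _ = _ := by group
    rw [h2] at h1
    -- `Z^{g⁻¹} = Z`, hence `Z^g = Z`
    apply le_antisymm
    · rintro _ ⟨z, hz, rfl⟩
      rw [← h1] at hz
      obtain ⟨z', hz', rfl⟩ := hz
      have e1 : g * (g⁻¹ * z' * g⁻¹⁻¹) * g⁻¹ = z' := by group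
      show g * (g⁻¹ * z' * g⁻¹⁻¹) * g⁻¹ ∈ Z
      rw [e1]
      exact hz'
    · intro x hx
      have h4 : g⁻¹ * x * g⁻¹⁻¹ ∈ Z := by
        rw [← h1]
        exact ⟨x, hx, rfl⟩
      exact ⟨_, h4, by
        show g * (g⁻¹ * x * g⁻¹⁻¹) * g⁻¹ = x
        group⟩
  have hcomm := Cfsg.Agent.S0077.result P Z hZC hWC
  have hPN : (P : Subgroup G) ≤ normalizer (Z : Set G) := by
    intro x hx
    refine mem_normalizer_of_conj_le ?_
    rintro z ⟨hz1, hz2⟩
    refine ⟨(P : Subgroup G).mul_mem ((P : Subgroup G).mul_mem hx hz1) ((P : Subgroup G).inv_mem hx), ?_⟩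
    have := Subgroup.mem_centralizer_iff.mp hz2 x hx
    rw [this]
    simpa using hz2
  have hPV : (P : Subgroup G) ≤ V := hPN.trans hV
  have hG : ∀ x (hx : x ∈ (P : Subgroup G)), x ∈ commutator G → (⟨x, hPV hx⟩ : V) ∈ commutator V := by
    intro x hx hxc
    have h1 : x ∈ commutator G ⊓ (P : Subgroup G) := ⟨hxc, hx⟩
    rw [hcomm] at h1
    have h2 : ⁅normalizer (Z : Set G), normalizer (Z : Set G)⁆ ≤ ⁅V, V⁆ := Subgroup.commutator_mono hV hV
    have h3 := h2 h1.1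
    rw [← Subgroup.map_subtype_commutator] at h3
    obtain ⟨y, hy, hyx⟩ := h3
    have : y = ⟨x, hPV hx⟩ := Subtype.ext hyx
    rw [← this]
    exact hy
  -- the descending chain
  set T : Subgroup G := (P : Subgroup G) with hT
  have hTp : IsPGroup p T := P.isPGroup'
  have hTi : ¬ p ∣ T.index := P.not_dvd_index
  set R₀ : Subgroup T := ((pResidual p V).map V.subtype).subgroupOf T with hR₀
  have hR₀mem : ∀ u : T, (u : G) ∈ (pResidual p V).map V.subtype ↔ u ∈ R₀ := fun u => Iff.rfl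
  have hR₀n : R₀.Normal := by
    haveI : (pResidual p V).Normal := CfsgLib.Tr.pResidual_normal p V
    constructor
    intro n hn t
    rw [← hR₀mem] at hn ⊢
    obtain ⟨v, hv, hvn⟩ := hn
    refine ⟨⟨t, hPV t.2⟩ * v * ⟨t, hPV t.2⟩⁻¹, Subgroup.Normal.conj_mem inferInstance v hv _, ?_⟩
    simp [← hvn]
  haveI := hR₀n
  have hT'p : IsPGroup p (T ⧸ R₀) := hTp.to_quotient R₀
  have key : ∀ (n : ℕ) (K : Subgroup T) [K.Normal], R₀ ≤ K → Nat.card K = n → (∃ φ : G →* T ⧸ K, ∀ u : T, φ u = (u : T ⧸ K)) →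
      ∃ φ : G →* T ⧸ R₀, ∀ u : T, φ u = (u : T ⧸ R₀) := by
    intro n
    induction n using Nat.strong_induction_on with
    | _ n ih =>
      intro K hKn hRK hn hφK
      by_cases hEq : K = R₀
      · subst hEq
        exact hφK
      set mk := QuotientGroup.mk' R₀ with hmk
      set K' : Subgroup (T ⧸ R₀) := K.map mk with hK'
      haveI hK'n : K'.Normal := Subgroup.Normal.map hKn mk (QuotientGroup.mk'_surjective R₀)
      have hcomap : K'.comap mk = K := by
        rw [hK']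
        apply Subgroup.comap_map_eq_self
        rw [hmk, QuotientGroup.ker_mk']
        exact hRK
      have hcK : Nat.card K = Nat.card K' * Nat.card R₀ := by
        have := card_comap_mk R₀ K'
        rwa [← hmk, hcomap] at this
      obtain ⟨a, ha⟩ := IsPGroup.iff_card.mp (hT'p.to_subgroup K')
      have ha0 : a ≠ 0 := by
        rintro rfl
        rw [pow_zero] at ha
        have h1 : K' = ⊥ := Subgroup.card_eq_one.mp ha
        apply hEq
        apply le_antisymm _ hRK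
        intro x hx
        have h2 : mk x ∈ K' := ⟨x, hx, rfl⟩
        rw [h1, Subgroup.mem_bot] at h2
        exact (QuotientGroup.eq_one_iff x).mp h2
      obtain ⟨b, rfl⟩ : ∃ b, a = b + 1 := ⟨a - 1, by omega⟩
      obtain ⟨M, hMK, hMn, hMc⟩ := exists_normal_card_pow (p := p) hT'p (Nat.card K') K' rfl hK'n b (by
        rw [ha, pow_succ]
        exact Nat.le_mul_of_pos_right _ hpp.pos)
      set K₁ : Subgroup T := M.comap mk with hK₁
      haveI hK₁n : K₁.Normal := hMn.comap mk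
      have hK₁K : K₁ ≤ K := by
        rw [← hcomap]
        exact Subgroup.comap_mono hMK
      have hRK₁ : R₀ ≤ K₁ := by
        intro x hx
        show mk x ∈ M
        have e1 : mk x = 1 := (QuotientGroup.eq_one_iff x).mpr hx
        rw [e1]
        exact one_mem _
      have hcK₁ : Nat.card K₁ = p ^ b * Nat.card R₀ := by
        have := card_comap_mk R₀ M
        rw [hMc] at this
        exact this
      have hcard : Nat.card K = p * Nat.card K₁ := by
        rw [hcK, ha, hcK₁, pow_succ]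
        ring
      obtain ⟨φ, hφ⟩ := hφK
      obtain ⟨φ₁, hφ₁⟩ := grun_lift T hTp hTi V hPV hG K K₁ hK₁K hcard (fun u hu => hRK₁ ((hR₀mem u).mp hu)) φ hφ
      refine ih (Nat.card K₁) ?_ K₁ hRK₁ rfl ⟨φ₁, hφ₁⟩
      rw [← hn, hcard]
      have h1 := hpp.one_lt
      have h2 : 0 < Nat.card K₁ := Nat.card_pos
      nlinarith
  obtain ⟨φ, hφ⟩ := key _ ⊤ le_top rfl ⟨1, fun u => ((QuotientGroup.eq_one_iff u).mpr (Subgroup.mem_top u)).symm⟩
  apply le_antisymm
  · rintro x ⟨hxT, hxR⟩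
    refine ⟨hxT, ?_⟩
    have h1 : φ.ker.index ∣ Nat.card (T ⧸ R₀) := by
      rw [Subgroup.index_ker]
      exact Subgroup.card_subgroup_dvd_card _
    obtain ⟨a, ha⟩ := IsPGroup.iff_card.mp hT'p
    rw [ha] at h1
    obtain ⟨j, -, hj⟩ := (Nat.dvd_prime_pow hpp).mp h1
    haveI : φ.ker.Normal := MonoidHom.normal_ker _
    have h2 := CfsgLib.Trans.pResidual_le_of_index (p := p) φ.ker hj
    have h3 : φ x = 1 := MonoidHom.mem_ker.mp (h2 hxR)
    have h4 := hφ ⟨x, hxT⟩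
    have h5 : φ x = ((⟨x, hxT⟩ : T) : T ⧸ R₀) := h4
    rw [h3] at h5
    have h6 : (⟨x, hxT⟩ : T) ∈ R₀ := (QuotientGroup.eq_one_iff (⟨x, hxT⟩ : T)).mp h5.symm
    exact (hR₀mem ⟨x, hxT⟩).mpr h6
  · rintro x ⟨hxT, hxR⟩
    refine ⟨hxT, ?_⟩
    have h1 : (pResidual p V).map V.subtype ≤ pResidual p G := by
      rw [Subgroup.map_le_iff_le_comap]
      unfold pResidual
      rw [Subgroup.closure_le]
      intro v hv
      apply Subgroup.subset_closure
      have : orderOf (v : G) = orderOf v := Subgroup.orderOf_coe v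
      show Nat.Coprime (orderOf (v : G)) p
      rw [this]
      exact hv
    exact h1 hxR

end CfsgLib.OOL
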