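import Cfsg.Prelude.Def_Transfer
import Mathlib

set_option autoImplicit false
set_option linter.unusedSectionVars false
set_option linter.style.haveILetI false
set_option linter.unusedVariables false

open scoped commutatorElement

namespace CfsgLib.OOL

universe u

section Hall

variable {G : Type u} [Group G] {x y z d e : G}

theorem central_pow {c : G} (hc : ∀ g, c * g = g * c) (n : ℕ) : ∀ g, c ^ n * g = g * c ^ n := by
  intro g
  have h : Commute c g := hc g
  exact (h.pow_left n).eq

theorem zpx (hd : z * x = d * x * z) (hdc : ∀ g, d * g = g * d) (n : ℕ) : z ^ n * x = d ^ n * x * z ^ n := by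
  induction n with
  | zero => simp
  | succ n ih =>
    calc z ^ (n + 1) * x = z ^ n * (z * x) := by rw [pow_succ, mul_assoc]
      _ = z ^ n * (d * x * z) := by rw [hd]
      _ = (z ^ n * x * z) * d := by
        rw [mul_assoc d, hdc, ← mul_assoc]
        simp only [mul_assoc]
      _ = (d ^ n * x * z ^ n * z) * d := by rw [ih]
      _ = d * (d ^ n * x * z ^ n * z) := (hdc _).symm
      _ = d ^ (n + 1) * x * z ^ (n + 1) := by
        rw [pow_succ' d n, pow_succ z n]
        simp only [mul_assoc]

/-- `z * y^n = e^n * y^n * z`. -/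
theorem zyp (he : z * y = e * y * z) (hec : ∀ g, e * g = g * e) (n : ℕ) : z * y ^ n = e ^ n * y ^ n * z := by
  induction n with
  | zero => simp
  | succ n ih =>
    calc z * y ^ (n + 1) = (z * y ^ n) * y := by rw [pow_succ, mul_assoc]
      _ = e ^ n * y ^ n * z * y := by rw [ih]
      _ = e ^ n * y ^ n * (z * y) := by rw [mul_assoc]
      _ = e ^ n * y ^ n * (e * y * z) := by rw [he]
      _ = (e ^ n * y ^ n * (y * z)) * e := by
        rw [mul_assoc e, hec]
        simp only [mul_assoc]
      _ = e * (e ^ n * y ^ n * (y * z)) := (hec _).symm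
      _ = e ^ (n + 1) * y ^ (n + 1) * z := by
        rw [pow_succ' e n, pow_succ y n]
        simp only [mul_assoc]

/-- `z^n * y = e^n * y * z^n`. -/
theorem zpy (he : z * y = e * y * z) (hec : ∀ g, e * g = g * e) (n : ℕ) : z ^ n * y = e ^ n * y * z ^ n :=
  zpx he hec n

/-- `z^m * y^n = e^(m*n) * y^n * z^m`. -/
theorem zpyp (he : z * y = e * y * z) (hec : ∀ g, e * g = g * e) (m n : ℕ) :
    z ^ m * y ^ n = e ^ (m * n) * y ^ n * z ^ m := by
  induction m with
  | zero => simp
  | succ m ih =>
    calc z ^ (m + 1) * y ^ n = z ^ m * (z * y ^ n) := by rw [pow_succ, mul_assoc]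
      _ = z ^ m * (e ^ n * y ^ n * z) := by rw [zyp he hec n]
      _ = (z ^ m * (y ^ n * z)) * e ^ n := by
        rw [mul_assoc (e ^ n), central_pow hec n]
        simp only [mul_assoc]
      _ = (z ^ m * y ^ n * z) * e ^ n := by simp only [mul_assoc]
      _ = (e ^ (m * n) * y ^ n * z ^ m * z) * e ^ n := by rw [ih]
      _ = e ^ n * (e ^ (m * n) * y ^ n * z ^ m * z) := (central_pow hec n _).symm
      _ = e ^ ((m + 1) * n) * y ^ n * z ^ (m + 1) := by
        rw [add_mul, one_mul, add_comm (m * n) n, pow_add e n (m * n), pow_succ z m]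
        simp only [mul_assoc]

/-- `y^n * x * e^(n choose 2) = z^n * x * y^n`. -/
theorem ypx (hz : y * x = z * x * y) (he : z * y = e * y * z) (hec : ∀ g, e * g = g * e) (n : ℕ) :
    y ^ n * x * e ^ (n.choose 2) = z ^ n * x * y ^ n := by
  induction n with
  | zero => simp
  | succ n ih =>
    have hch : (n + 1).choose 2 = n + n.choose 2 := by
      rw [Nat.choose_succ_succ' n 1, Nat.choose_one_right]
    calc y ^ (n + 1) * x * e ^ (n + 1).choose 2 = y * (y ^ n * x * e ^ n.choose 2) * e ^ n := by
          rw [hch, pow_add e n, pow_succ' y n]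
          rw [central_pow hec n (e ^ n.choose 2)]
          simp only [mul_assoc]
      _ = y * (z ^ n * x * y ^ n) * e ^ n := by rw [ih]
      _ = (y * z ^ n * e ^ n) * (x * y ^ n) := by
        calc y * (z ^ n * x * y ^ n) * e ^ n = (y * z ^ n) * ((x * y ^ n) * e ^ n) := by
              simp only [mul_assoc]
          _ = (y * z ^ n) * (e ^ n * (x * y ^ n)) := by rw [central_pow hec n]
          _ = _ := by simp only [mul_assoc]
      _ = (z ^ n * y) * (x * y ^ n) := by
        have h1 := zpy he hec n
        have h2 : e ^ n * y * z ^ n = y * z ^ n * e ^ n := by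
          rw [mul_assoc, central_pow hec n]
        rw [h1, h2]
      _ = z ^ n * (y * x) * y ^ n := by simp only [mul_assoc]
      _ = z ^ n * (z * x * y) * y ^ n := by rw [hz]
      _ = z ^ (n + 1) * x * y ^ (n + 1) := by
        rw [pow_succ z n, pow_succ' y n]
        simp only [mul_assoc]

theorem two_mul_choose (n : ℕ) : n * (n + 1) = 2 * (n + 1).choose 2 := by
  induction n with
  | zero => simp
  | succ n ih =>
    have h : (n + 1 + 1).choose 2 = (n + 1) + (n + 1).choose 2 := by
      rw [Nat.choose_succ_succ' (n + 1) 1, Nat.choose_one_right]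
    rw [h]
    nlinarith

/-- **Hall's collection formula for class three.** -/
theorem hall3 (hz : y * x = z * x * y) (hd : z * x = d * x * z) (he : z * y = e * y * z)
    (hdc : ∀ g, d * g = g * d) (hec : ∀ g, e * g = g * e) (n : ℕ) :
    (x * y) ^ n = x ^ n * y ^ n * z ^ (n.choose 2) * (d ^ (n + 1).choose 3 * e ^ (2 * (n + 1).choose 3)) := by
  induction n with
  | zero => simp [Nat.choose]
  | succ n ih =>
    set A := n.choose 2 with hA
    set B := (n + 1).choose 3 with hB
    have hch1 : (n + 1).choose 2 = A + n := by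
      rw [Nat.choose_succ_succ' n 1, Nat.choose_one_right, hA, add_comm]
    have hch2 : (n + 1 + 1).choose 3 = B + (A + n) := by
      rw [Nat.choose_succ_succ' (n + 1) 2, hch1, add_comm]
    have hm := two_mul_choose n
    set c := d ^ B * e ^ (2 * B) with hc
    have hcc : ∀ g, c * g = g * c := by
      intro g
      rw [hc, mul_assoc, central_pow hec, ← mul_assoc, central_pow hdc, mul_assoc]
    have hFc := central_pow hdc A
    have hVc := central_pow hdc n
    have hHc := central_pow hec A
    have hUc := central_pow hec (n * (n + 1))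
    set F := d ^ A with hF
    set H := e ^ A with hH
    set V := d ^ n with hV
    set U := e ^ (n * (n + 1)) with hU
    set a := x ^ n with ha
    set b := y ^ n with hb
    set Z := z ^ A with hZ
    set w := z ^ n with hw
    have h1 : Z * x = F * x * Z := zpx hd hdc A
    have h2 : Z * y = H * y * Z := zpy he hec A
    have h3 : b * x * H = w * x * b := ypx hz he hec n
    have h4 : w * x = V * x * w := zpx hd hdc n
    have h5 : w * (b * y) = U * (b * y) * w := by
      have := zpyp he hec n (n + 1)
      rw [pow_succ y n] at this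
      exact this
    have hstep : a * b * Z * c * (x * y) = a * x * (b * y) * w * Z * c * F * V * U := by
      calc a * b * Z * c * (x * y) = a * b * Z * (x * y) * c := by
            simp only [mul_assoc]
            rw [hcc (x * y)]
            simp only [mul_assoc]
        _ = a * b * (Z * x) * y * c := by simp only [mul_assoc]
        _ = a * b * (F * x * Z) * y * c := by rw [h1]
        _ = a * b * x * Z * y * c * F := by
            simp only [mul_assoc]
            rw [hFc (x * (Z * (y * c)))]
            simp only [mul_assoc]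
        _ = a * b * x * (Z * y) * c * F := by simp only [mul_assoc]
        _ = a * b * x * (H * y * Z) * c * F := by rw [h2]
        _ = a * (b * x * H) * y * Z * c * F := by simp only [mul_assoc]
        _ = a * (w * x * b) * y * Z * c * F := by rw [h3]
        _ = a * (w * x) * b * y * Z * c * F := by simp only [mul_assoc]
        _ = a * (V * x * w) * b * y * Z * c * F := by rw [h4]
        _ = a * x * w * b * y * Z * c * F * V := by
            simp only [mul_assoc]
            rw [hVc (x * (w * (b * (y * (Z * (c * F))))))]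
            simp only [mul_assoc]
        _ = a * x * (w * (b * y)) * Z * c * F * V := by simp only [mul_assoc]
        _ = a * x * (U * (b * y) * w) * Z * c * F * V := by rw [h5]
        _ = a * x * (b * y) * w * Z * c * F * V * U := by
            simp only [mul_assoc]
            rw [hUc (b * (y * (w * (Z * (c * (F * V))))))]
            simp only [mul_assoc]
    have hfinal : c * F * V * U = d ^ (B + (A + n)) * e ^ (2 * (B + (A + n))) := by
      have h6 : 2 * (B + (A + n)) = 2 * B + n * (n + 1) := by
        rw [hm, hch1]; ring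
      rw [h6, pow_add d B, pow_add d A n, pow_add e (2 * B)]
      rw [hc]
      simp only [mul_assoc]
      rw [central_pow hec (2 * B) (F * (V * U))]
      rw [central_pow hec (2 * B) U]
      simp only [mul_assoc]
      rfl
    have hwZ : w * Z = z ^ (A + n) := by
      rw [hw, hZ, ← pow_add, add_comm]
    rw [pow_succ, ih, hstep, hch2, hch1]
    rw [pow_succ x n, pow_succ y n, ← hwZ, ← hfinal]
    simp only [mul_assoc]
    rfl

/-- The basic computation for elements of order dividing `p`. -/
theorem hall3_pow_mul {p : ℕ} (hp : p.Prime) (hp2 : p ≠ 2)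
    (hz : y * x = z * x * y) (hd : z * x = d * x * z) (he : z * y = e * y * z)
    (hdc : ∀ g, d * g = g * d) (hec : ∀ g, e * g = g * e)
    (hdp : d ^ (p + 1).choose 3 = 1) (hep : e ^ (2 * (p + 1).choose 3) = 1) (hzp : z ^ p = 1) :
    (x * y) ^ p = x ^ p * y ^ p := by
  have h1 : p ∣ p.choose 2 := hp.dvd_choose_self (by norm_num) (by
    have := hp.two_le
    omega)
  obtain ⟨k, hk⟩ := h1
  rw [hall3 hz hd he hdc hec p, hdp, hep, hk, pow_mul, hzp]
  simp

end Hall

section Exp

variable {R : Type u} [Group R]

/-- Set-up data: a commutator and its two further commutators. -/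
theorem comm_setup (x y : R) :
    y * x = ⁅y, x⁆ * x * y ∧ ⁅y, x⁆ * x = ⁅⁅y, x⁆, x⁆ * x * ⁅y, x⁆ ∧ ⁅y, x⁆ * y = ⁅⁅y, x⁆, y⁆ * y * ⁅y, x⁆ := by
  refine ⟨?_, ?_, ?_⟩ <;> simp only [commutatorElement_def] <;> group

/-- `x^p = y^p = 1` and `d, e` central with suitable properties gives `z^p = 1`. -/
theorem comm_pow_eq_one {x y z e : R} {p : ℕ} (hp : p.Prime) (hp2 : p ≠ 2)
    (hz : y * x = z * x * y) (he : z * y = e * y * z) (hec : ∀ g, e * g = g * e)
    (hy : y ^ p = 1) : z ^ p = 1 := by
  have h1 := zyp he hec p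
  rw [hy, mul_one, mul_one] at h1
  have hep : e ^ p = 1 := mul_eq_right.mp h1.symm
  have h2 := ypx hz he hec p
  obtain ⟨k, hk⟩ : p ∣ p.choose 2 := hp.dvd_choose_self (by norm_num) (by
    have := hp.two_le
    omega)
  rw [hy, hk, pow_mul, hep] at h2
  simp only [one_pow, mul_one, one_mul] at h2
  exact (mul_eq_right.mp h2.symm)

/-- **S0124 and its class two analogue**: elements of order dividing `p` generate a subgroup of exponent dividing `p`. -/
theorem closure_exponent {p : ℕ} (hp : p.Prime) (hp2 : p ≠ 2)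
    (hcl : ∀ c ∈ commutator R, ∀ g h : R, ⁅⁅c, g⁆, h⁆ = 1)
    (hdv : ∀ w ∈ ⁅commutator R, (⊤ : Subgroup R)⁆, w ^ p = 1 → w ^ (p + 1).choose 3 = 1)
    (g : R) (hg : g ∈ Subgroup.closure {x : R | x ^ p = 1}) : g ^ p = 1 := by
  have hmul : ∀ x y : R, x ^ p = 1 → y ^ p = 1 → (x * y) ^ p = 1 := by
    intro x y hx hy
    obtain ⟨hz, hd, he⟩ := comm_setup x y
    set z := ⁅y, x⁆ with hzdef
    set d := ⁅z, x⁆ with hddef
    set e := ⁅z, y⁆ with hedef
    have hzc : z ∈ commutator R := by
      rw [commutator_def]
      exact Subgroup.commutator_mem_commutator (Subgroup.mem_top _) (Subgroup.mem_top _)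
    have hcen : ∀ a b g : R, ⁅a, b⁆ = 1 → a * b = b * a := fun a b g h => commutatorElement_eq_one_iff_mul_comm.mp h
    have hdc : ∀ g, d * g = g * d := fun g => commutatorElement_eq_one_iff_mul_comm.mp (hcl z hzc x g)
    have hec : ∀ g, e * g = g * e := fun g => commutatorElement_eq_one_iff_mul_comm.mp (hcl z hzc y g)
    have hzp : z ^ p = 1 := comm_pow_eq_one hp hp2 hz he hec hy
    have hep : e ^ p = 1 := by
      have h1 := zyp he hec p
      rw [hy, mul_one, mul_one] at h1
      exact mul_eq_right.mp h1.symm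
    have hdp : d ^ p = 1 := by
      have h1 := zyp hd hdc p
      rw [hx, mul_one, mul_one] at h1
      exact mul_eq_right.mp h1.symm
    have hdm : d ∈ ⁅commutator R, (⊤ : Subgroup R)⁆ := Subgroup.commutator_mem_commutator hzc (Subgroup.mem_top _)
    have hem : e ∈ ⁅commutator R, (⊤ : Subgroup R)⁆ := Subgroup.commutator_mem_commutator hzc (Subgroup.mem_top _)
    have := hall3_pow_mul hp hp2 hz hd he hdc hec (hdv d hdm hdp) (by
      rw [mul_comm, pow_mul, hdv e hem hep, one_pow]) hzp
    rw [this, hx, hy, one_mul]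
  induction hg using Subgroup.closure_induction with
  | mem x hx => exact hx
  | one => simp
  | mul x y _ _ hx hy => exact hmul x y hx hy
  | inv x _ hx => rw [inv_pow, hx, inv_one]

/-- **S0123** core. -/
theorem pow_mul_of_derived {p : ℕ} (hp : p.Prime) (hp2 : p ≠ 2)
    (hcl : ∀ c ∈ commutator R, ∀ g h : R, ⁅⁅c, g⁆, h⁆ = 1)
    (hdv : ∀ w ∈ ⁅commutator R, (⊤ : Subgroup R)⁆, w ^ p = 1 → w ^ (p + 1).choose 3 = 1)
    (hder : commutator R ≤ Subgroup.closure {x : R | x ^ p = 1}) (x y : R) :
    (x * y) ^ p = x ^ p * y ^ p := by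
  obtain ⟨hz, hd, he⟩ := comm_setup x y
  set z := ⁅y, x⁆ with hzdef
  set d := ⁅z, x⁆ with hddef
  set e := ⁅z, y⁆ with hedef
  have hzc : z ∈ commutator R := by
    rw [commutator_def]
    exact Subgroup.commutator_mem_commutator (Subgroup.mem_top _) (Subgroup.mem_top _)
  have hdc : ∀ g, d * g = g * d := fun g => commutatorElement_eq_one_iff_mul_comm.mp (hcl z hzc x g)
  have hec : ∀ g, e * g = g * e := fun g => commutatorElement_eq_one_iff_mul_comm.mp (hcl z hzc y g)
  have hexp : ∀ w ∈ commutator R, w ^ p = 1 := fun w hw => closure_exponent hp hp2 hcl hdv w (hder hw)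
  have hdm : d ∈ ⁅commutator R, (⊤ : Subgroup R)⁆ := Subgroup.commutator_mem_commutator hzc (Subgroup.mem_top _)
  have hem : e ∈ ⁅commutator R, (⊤ : Subgroup R)⁆ := Subgroup.commutator_mem_commutator hzc (Subgroup.mem_top _)
  have hle : ⁅commutator R, (⊤ : Subgroup R)⁆ ≤ commutator R := by
    rw [commutator_def, Subgroup.commutator_le]
    intro a ha b _
    exact Subgroup.commutator_mem_commutator (Subgroup.mem_top _) (Subgroup.mem_top _)
  exact hall3_pow_mul hp hp2 hz hd he hdc hec (hdv d hdm (hexp d (hle hdm))) (by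
      rw [mul_comm, pow_mul, hdv e hem (hexp e (hle hem)), one_pow]) (hexp z hzc)

/-- In class three, `p > 3`: hypotheses for the above. -/
theorem class_three_hyps {p : ℕ} (hp : p.Prime) (hp3 : 3 < p)
    (hcl : ⁅⁅commutator R, (⊤ : Subgroup R)⁆, (⊤ : Subgroup R)⁆ = ⊥) :
    (∀ c ∈ commutator R, ∀ g h : R, ⁅⁅c, g⁆, h⁆ = 1) ∧
    (∀ w ∈ ⁅commutator R, (⊤ : Subgroup R)⁆, w ^ p = 1 → w ^ (p + 1).choose 3 = 1) := by
  constructor
  · intro c hc g h
    have := Subgroup.commutator_mem_commutator (Subgroup.commutator_mem_commutator hc (Subgroup.mem_top g)) (Subgroup.mem_top h)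
    rw [hcl] at this
    simpa using this
  · intro w hw hwp
    have h1 : p ∣ (p + 1).choose 3 := by
      rw [Nat.choose_succ_succ' p 2]
      exact dvd_add (hp.dvd_choose_self (by norm_num) (by omega)) (hp.dvd_choose_self (by norm_num) hp3)
    obtain ⟨k, hk⟩ := h1
    rw [hk, pow_mul, hwp, one_pow]

/-- In class two: hypotheses for the above. -/
theorem class_two_hyps (p : ℕ) (hcl : ⁅commutator R, (⊤ : Subgroup R)⁆ = ⊥) :
    (∀ c ∈ commutator R, ∀ g h : R, ⁅⁅c, g⁆, h⁆ = 1) ∧
    (∀ w ∈ ⁅commutator R, (⊤ : Subgroup R)⁆, w ^ p = 1 → w ^ (p + 1).choose 3 = 1) := by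
  constructor
  · intro c hc g h
    have := Subgroup.commutator_mem_commutator hc (Subgroup.mem_top g)
    rw [hcl, Subgroup.mem_bot] at this
    rw [this]
    simp
  · intro w hw hwp
    rw [hcl, Subgroup.mem_bot] at hw
    rw [hw, one_pow]

end Exp

end CfsgLib.OOL
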