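import Cfsg.Prelude.Def_OddOrderLocal
import Mathlib.GroupTheory.PGroup
import Mathlib.GroupTheory.Nilpotent
import Cfsg.Agent.Lib.Solv.Nilp

set_option autoImplicit false
set_option linter.unusedSectionVars false
set_option linter.style.haveILetI false
set_option linter.unusedVariables false

open Pointwise
open scoped commutatorElement IsMulCommutative
open Subgroup Cfsg

namespace CfsgLib.OOL.Puig

variable {G : Type*} [Group G]

theorem puigStep_anti {X Y : Subgroup G} (h : X ≤ Y) : puigStep Y ≤ puigStep X := by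
  apply sSup_le_sSup
  rintro A ⟨hA, hYA⟩
  exact ⟨hA, h.trans hYA⟩

theorem puigSeq_zero : puigSeq G 0 = ⊥ := rfl
theorem puigSeq_succ (n : ℕ) : puigSeq G (n + 1) = puigStep (puigSeq G n) := rfl

theorem puigStep_bot : puigStep (⊥ : Subgroup G) = ⊤ := by
  rw [eq_top_iff]
  intro x _
  have h1 : zpowers x ∈ {A : Subgroup G | IsMulCommutative A ∧ (⊥ : Subgroup G) ≤ normalizer (A : Set G)} := by
    refine ⟨?_, bot_le⟩
    infer_instance
  exact (le_sSup h1 : zpowers x ≤ puigStep ⊥) (mem_zpowers x)

theorem puigSeq_one : puigSeq G 1 = ⊤ := puigStep_bot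

/-- even terms below odd terms -/
theorem even_le_odd (N : ℕ) : ∀ n m : ℕ, n + m = N → puigSeq G (2 * n) ≤ puigSeq G (2 * m + 1) := by
  induction N using Nat.strong_induction_on with
  | _ N ih =>
    intro n m hnm
    cases n with
    | zero => simp [puigSeq_zero]
    | succ n =>
      cases m with
      | zero => simp [puigSeq_one]
      | succ m =>
        have e1 : 2 * (n + 1) = (2 * n + 1) + 1 := by ring
        have e2 : 2 * (m + 1) + 1 = (2 * (m + 1)) + 1 := rfl
        rw [e1, e2, puigSeq_succ, puigSeq_succ]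
        apply puigStep_anti
        exact ih (m + 1 + n) (by omega) (m + 1) n rfl

theorem even_le_odd' (n m : ℕ) : puigSeq G (2 * n) ≤ puigSeq G (2 * m + 1) := even_le_odd _ n m rfl

theorem even_odd_step (n : ℕ) :
    puigSeq G (2 * n) ≤ puigSeq G (2 * n + 2) ∧ puigSeq G (2 * n + 3) ≤ puigSeq G (2 * n + 1) := by
  induction n with
  | zero => exact ⟨by simp [puigSeq_zero], by simp [puigSeq_one]⟩
  | succ n ih =>
    have h1 : puigSeq G (2 * (n + 1)) ≤ puigSeq G (2 * (n + 1) + 2) := by
      show puigStep (puigSeq G (2 * n + 1)) ≤ puigStep (puigSeq G (2 * n + 3))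
      exact puigStep_anti ih.2
    refine ⟨h1, ?_⟩
    show puigStep (puigSeq G (2 * (n + 1) + 2)) ≤ puigStep (puigSeq G (2 * (n + 1)))
    exact puigStep_anti h1

theorem even_mono : Monotone (fun n => puigSeq G (2 * n)) :=
  monotone_nat_of_le_succ (fun n => (even_odd_step n).1)

theorem exists_stable [Finite G] :
    ∃ k : ℕ, 0 < k ∧ ∀ n : ℕ, k ≤ n → puigSeq G (2 * n) = puigSeq G (2 * k) := by
  obtain ⟨k, hk⟩ := (wellFoundedGT_iff_monotone_chain_condition (α := Subgroup G)).mp inferInstance
    ⟨fun n => puigSeq G (2 * n), even_mono⟩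
  refine ⟨k + 1, Nat.succ_pos k, fun n hn => ?_⟩
  have h1 := hk n (by omega)
  have h2 := hk (k + 1) (by omega)
  simp only [OrderHom.coe_mk] at h1 h2
  rw [← h1, h2]

theorem puigLower_eq [Finite G] {k : ℕ} (hk : ∀ n : ℕ, k ≤ n → puigSeq G (2 * n) = puigSeq G (2 * k)) :
    puigLower G = puigSeq G (2 * k) := by
  apply le_antisymm
  · apply iSup_le
    intro n
    have := (even_mono (G := G)) (le_max_left n k)
    simp only at this
    rw [hk _ (le_max_right n k)] at this
    exact this
  · exact le_iSup (fun n => puigSeq G (2 * n)) k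

theorem puigSubgroup_eq [Finite G] {k : ℕ} (hk : ∀ n : ℕ, k ≤ n → puigSeq G (2 * n) = puigSeq G (2 * k)) :
    puigSubgroup G = puigSeq G (2 * k + 1) := by
  apply le_antisymm
  · exact iInf_le (fun n => puigSeq G (2 * n + 1)) k
  · apply le_iInf
    intro n
    show puigStep (puigSeq G (2 * k)) ≤ puigStep (puigSeq G (2 * n))
    apply puigStep_anti
    have := (even_mono (G := G)) (le_max_left n k)
    simp only at this
    rw [hk _ (le_max_right n k)] at this
    exact this

/-- S1467 -/
theorem puig_series [Finite G] :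
    puigSeq G 0 = ⊥ ∧ puigSeq G 1 = ⊤ ∧
      (∀ n m : ℕ, puigSeq G (2 * n) ≤ puigSeq G (2 * n + 2) ∧ puigSeq G (2 * n) ≤ puigSeq G (2 * m + 1) ∧
        puigSeq G (2 * m + 3) ≤ puigSeq G (2 * m + 1)) ∧
      (∃ k : ℕ, ∀ n : ℕ, k ≤ n → puigSeq G (2 * n) = puigLower G ∧ puigSeq G (2 * n + 1) = puigSubgroup G) ∧
      puigLower G ≤ puigSubgroup G ∧
      puigStep (puigLower G) = puigSubgroup G ∧ puigStep (puigSubgroup G) = puigLower G := by
  obtain ⟨k, hk0, hk⟩ := exists_stable (G := G)
  have hL := puigLower_eq hk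
  have hU := puigSubgroup_eq hk
  refine ⟨rfl, puigSeq_one, fun n m => ⟨(even_odd_step n).1, even_le_odd' n m, (even_odd_step m).2⟩, ⟨k, ?_⟩, ?_, ?_, ?_⟩
  · intro n hn
    refine ⟨by rw [hk n hn, hL], ?_⟩
    rw [hU]
    show puigStep (puigSeq G (2 * n)) = puigStep (puigSeq G (2 * k))
    rw [hk n hn]
  · rw [hL, hU]; exact even_le_odd' k k
  · rw [hL, hU]; rfl
  · rw [hL, hU]
    show puigSeq G (2 * (k + 1)) = _
    exact hk (k + 1) (Nat.le_succ k)

theorem puigStep_normal {X : Subgroup G} (hX : X.Normal) : (puigStep X).Normal := by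
  constructor
  intro n hn g
  have hle : puigStep X ≤ (puigStep X).comap (MulAut.conj g).toMonoidHom := by
    apply sSup_le
    rintro A ⟨hA, hXA⟩ a ha
    have hmem : A.map (MulAut.conj g).toMonoidHom ∈
        {A : Subgroup G | IsMulCommutative A ∧ X ≤ normalizer (A : Set G)} := by
      refine ⟨⟨⟨?_⟩⟩, ?_⟩
      · rintro ⟨_, a, ha, rfl⟩ ⟨_, b, hb, rfl⟩
        apply Subtype.ext
        have := mul_comm (⟨a, ha⟩ : A) ⟨b, hb⟩
        have h2 := congrArg Subtype.val this
        simp only [Subgroup.coe_mul, MulEquiv.coe_toMonoidHom, MulAut.conj_apply] at h2 ⊢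
        calc g * a * g⁻¹ * (g * b * g⁻¹) = g * (a * b) * g⁻¹ := by group
          _ = g * (b * a) * g⁻¹ := by rw [h2]
          _ = _ := by group
      · intro x hx
        rw [Subgroup.mem_normalizer_iff]
        intro y
        have hx' : g⁻¹ * x * g ∈ X := by
          have := hX.conj_mem x hx g⁻¹
          simpa using this
        have hN := Subgroup.mem_normalizer_iff.mp (hXA hx')
        constructor
        · rintro ⟨a, ha, rfl⟩
          refine ⟨g⁻¹ * x * g * a * (g⁻¹ * x * g)⁻¹, (hN a).mp ha, ?_⟩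
          simp only [MulEquiv.coe_toMonoidHom, MulAut.conj_apply]
          group
        · rintro ⟨a, ha, hay⟩
          simp only [MulEquiv.coe_toMonoidHom, MulAut.conj_apply] at hay
          refine ⟨(g⁻¹ * x * g)⁻¹ * a * (g⁻¹ * x * g), ?_, ?_⟩
          · show _ ∈ A
            rw [hN]
            have he : g⁻¹ * x * g * ((g⁻¹ * x * g)⁻¹ * a * (g⁻¹ * x * g)) * (g⁻¹ * x * g)⁻¹ = a := by group
            rw [he]
            exact ha
          · simp only [MulEquiv.coe_toMonoidHom, MulAut.conj_apply]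
            have hy : y = x⁻¹ * (g * a * g⁻¹) * x := by rw [hay]; group
            rw [hy]; group
    have := (le_sSup hmem : A.map (MulAut.conj g).toMonoidHom ≤ puigStep X)
    exact this ⟨a, ha, rfl⟩
  exact hle hn

theorem puigSeq_normal (n : ℕ) : (puigSeq G n).Normal := by
  induction n with
  | zero => show (⊥ : Subgroup G).Normal; infer_instance
  | succ n ih => exact puigStep_normal ih

/-- Main step of S1466: the centralizer of a Puig step of a normal subgroup lies in it. -/
theorem centralizer_puigStep_le {R : Type*} [Group R] [Finite R] (p : ℕ) [Fact p.Prime] (hR : IsPGroup p R)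
    {X : Subgroup R} (hX : X.Normal) :
    centralizer ((puigStep X : Subgroup R) : Set R) ≤ puigStep X := by
  set L := puigStep X with hLdef
  haveI hLn : L.Normal := puigStep_normal hX
  set C := centralizer (L : Set R) with hCdef
  haveI hCn : C.Normal := Subgroup.normal_centralizer
  by_contra hne
  let π := QuotientGroup.mk' L
  have hnil : Group.IsNilpotent (R ⧸ L) := (hR.to_quotient L).isNilpotent
  have hne2 : C.map π ≠ ⊥ := by
    intro h
    apply hne
    intro x hx
    have : π x ∈ C.map π := ⟨x, hx, rfl⟩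
    rw [h, Subgroup.mem_bot] at this
    exact (QuotientGroup.eq_one_iff x).mp this
  haveI : (C.map π).Normal := Subgroup.Normal.map hCn π (QuotientGroup.mk'_surjective L)
  have hinf := CfsgLib.Solv.normal_inf_center_ne_bot (C.map π) hne2
  obtain ⟨⟨q, hq⟩, hq1⟩ := (Subgroup.ne_bot_iff_exists_ne_one).mp hinf
  obtain ⟨⟨x, hxC, hxq⟩, hqZ⟩ := hq
  have hq1' : q ≠ 1 := fun h => hq1 (Subtype.ext h)
  -- the abelian subgroup
  set Z : Subgroup R := L ⊓ C with hZ
  haveI hZn : Z.Normal := Subgroup.normal_inf_normal L C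
  have hxL : x ∉ L := by
    intro h
    apply hq1'
    rw [← hxq]
    exact (QuotientGroup.eq_one_iff x).mpr h
  have hZx : ∀ z ∈ Z, x * z = z * x := fun z hz =>
    (Subgroup.mem_centralizer_iff.mp hxC z hz.1).symm
  have hZZ : ∀ z ∈ Z, ∀ z' ∈ Z, z * z' = z' * z := fun z hz z' hz' =>
    (Subgroup.mem_centralizer_iff.mp hz'.2 z hz.1)
  have hk : ∀ a ∈ insert x (Z : Set R), ∀ b ∈ insert x (Z : Set R), a * b = b * a := by
    rintro a (rfl | ha) b (rfl | hb)
    · rfl
    · exact hZx b hb
    · exact (hZx a ha).symm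
    · exact hZZ a ha b hb
  set A : Subgroup R := closure (insert x (Z : Set R)) with hA
  have hAc : IsMulCommutative A := by
    exact Subgroup.isMulCommutative_closure hk
  have hAn : A.Normal := by
    constructor
    intro n hn g
    have hle : A ≤ A.comap (MulAut.conj g).toMonoidHom := by
      rw [hA, closure_le]
      rintro y (rfl | hy)
      · show g * y * g⁻¹ ∈ A
        have h1 : y⁻¹ * (g * y * g⁻¹) ∈ Z := by
          constructor
          · show _ ∈ L
            rw [← QuotientGroup.eq_one_iff]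
            have hc : (g : R ⧸ L) * q = q * (g : R ⧸ L) := (Subgroup.mem_center_iff.mp hqZ (g : R ⧸ L))
            have hq' : (y : R ⧸ L) = q := hxq
            rw [QuotientGroup.mk_mul, QuotientGroup.mk_mul, QuotientGroup.mk_mul, QuotientGroup.mk_inv, QuotientGroup.mk_inv, hq', hc]
            group
          · exact C.mul_mem (C.inv_mem hxC) (hCn.conj_mem y hxC g)
        have h2 : g * y * g⁻¹ = y * (y⁻¹ * (g * y * g⁻¹)) := by group
        rw [h2]
        exact A.mul_mem (subset_closure (Set.mem_insert _ _)) (subset_closure (Set.mem_insert_of_mem _ h1))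
      · show g * y * g⁻¹ ∈ A
        exact subset_closure (Set.mem_insert_of_mem _ (hZn.conj_mem y hy g))
    exact hle hn
  have hmem : A ∈ {A : Subgroup R | IsMulCommutative A ∧ X ≤ normalizer (A : Set R)} := by
    refine ⟨hAc, ?_⟩
    rw [Subgroup.normalizer_eq_top_iff.mpr hAn]
    exact le_top
  have hAL : A ≤ L := le_sSup hmem
  exact hxL (hAL (subset_closure (Set.mem_insert _ _)))

/-- S1466 -/
theorem puig_centralizers {R : Type*} [Group R] [Finite R] (p : ℕ) [Fact p.Prime] (hR : IsPGroup p R) [Nontrivial R] :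
    (∀ i : ℕ, 0 < i → center R ≤ centralizer ((puigSeq R i : Subgroup R) : Set R) ∧
        centralizer ((puigSeq R i : Subgroup R) : Set R) ≤ puigSeq R i) ∧
      (center R ≤ centralizer ((puigLower R : Subgroup R) : Set R) ∧ centralizer ((puigLower R : Subgroup R) : Set R) ≤ puigLower R) ∧
      (center R ≤ centralizer ((puigSubgroup R : Subgroup R) : Set R) ∧ centralizer ((puigSubgroup R : Subgroup R) : Set R) ≤ puigSubgroup R) ∧
      puigSubgroup R ≠ ⊥ ∧ puigLower R ≠ ⊥ := by
  have hcen : ∀ X : Subgroup R, center R ≤ centralizer (X : Set R) := fun X => Subgroup.center_le_centralizer _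
  have hmain : ∀ i : ℕ, 0 < i → centralizer ((puigSeq R i : Subgroup R) : Set R) ≤ puigSeq R i := by
    intro i hi
    obtain ⟨j, rfl⟩ : ∃ j, i = j + 1 := ⟨i - 1, by omega⟩
    exact centralizer_puigStep_le p hR (puigSeq_normal j)
  obtain ⟨k, hk0, hk⟩ := exists_stable (G := R)
  have hL := puigLower_eq hk
  have hU := puigSubgroup_eq hk
  have hb : ∀ X : Subgroup R, centralizer (X : Set R) ≤ X → X ≠ ⊥ := by
    rintro X hX rfl
    have : (⊤ : Subgroup R) ≤ ⊥ := by
      refine le_trans ?_ hX
      intro x _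
      rw [Subgroup.mem_centralizer_iff]
      intro y hy
      rw [Subgroup.mem_bot.mp hy]; simp
    exact top_ne_bot (le_bot_iff.mp this)
  have h1 : centralizer ((puigLower R : Subgroup R) : Set R) ≤ puigLower R := by
    rw [hL]; exact hmain _ (by omega)
  have h2 : centralizer ((puigSubgroup R : Subgroup R) : Set R) ≤ puigSubgroup R := by
    rw [hU]; exact hmain _ (by omega)
  exact ⟨fun i hi => ⟨hcen _, hmain i hi⟩, ⟨hcen _, h1⟩, ⟨hcen _, h2⟩, hb _ h2, hb _ h1⟩

end CfsgLib.OOL.Puig
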