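import Cfsg.Agent.Lib.OOL.Puig
import Cfsg.Agent.Lib.OOL.Stable

set_option autoImplicit false
set_option linter.unusedSectionVars false
set_option linter.style.haveILetI false
set_option linter.unusedVariables false

open Pointwise
open scoped commutatorElement IsMulCommutative
open Subgroup Cfsg

namespace CfsgLib.OOL.Puig

section Rel

variable {G : Type*} [Group G] {G' : Type*} [Group G']

/-- The Puig step relative to a subgroup, inside the ambient group. -/
def relStep (R X : Subgroup G) : Subgroup G :=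
  sSup {A : Subgroup G | A ≤ R ∧ IsMulCommutative A ∧ X ≤ normalizer (A : Set G)}

/-- The Puig series of a subgroup, inside the ambient group. -/
def relSeq (R : Subgroup G) : ℕ → Subgroup G
  | 0 => ⊥
  | n + 1 => relStep R (relSeq R n)

theorem relSeq_zero (R : Subgroup G) : relSeq R 0 = ⊥ := rfl
theorem relSeq_succ (R : Subgroup G) (n : ℕ) : relSeq R (n + 1) = relStep R (relSeq R n) := rfl

theorem le_relStep {R X A : Subgroup G} (hAR : A ≤ R) (hc : IsMulCommutative A) (hX : X ≤ normalizer (A : Set G)) :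
    A ≤ relStep R X :=
  le_sSup ⟨hAR, hc, hX⟩

theorem relStep_le {R X W : Subgroup G}
    (h : ∀ A : Subgroup G, A ≤ R → IsMulCommutative A → X ≤ normalizer (A : Set G) → A ≤ W) : relStep R X ≤ W :=
  sSup_le fun A hA => h A hA.1 hA.2.1 hA.2.2

theorem relStep_le_self (R X : Subgroup G) : relStep R X ≤ R := relStep_le fun _ h _ _ => h

theorem relStep_anti {R X Y : Subgroup G} (h : X ≤ Y) : relStep R Y ≤ relStep R X :=
  relStep_le fun A hA hc hY => le_relStep hA hc (h.trans hY)

theorem relStep_bot (R : Subgroup G) : relStep R ⊥ = R := by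
  apply le_antisymm (relStep_le_self _ _)
  intro r hr
  have h1 : zpowers r ≤ relStep R ⊥ := by
    apply le_relStep
    · exact (Subgroup.zpowers_le).mpr hr
    · exact ⟨⟨by
        rintro ⟨_, i, rfl⟩ ⟨_, j, rfl⟩
        apply Subtype.ext
        exact (Commute.refl r).zpow_zpow _ _ |>.eq⟩⟩
    · simp
  exact h1 (Subgroup.mem_zpowers r)

theorem relSeq_one (R : Subgroup G) : relSeq R 1 = R := relStep_bot R

theorem relSeq_le (R : Subgroup G) (n : ℕ) : relSeq R n ≤ R := by
  cases n with
  | zero => exact bot_le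
  | succ n => exact relStep_le_self _ _

/-- Functoriality of the relative step. -/
theorem map_relStep (f : G →* G') (R X : Subgroup G) (hX : X ≤ R) (hinj : ∀ a ∈ R, f a = 1 → a = 1) :
    (relStep R X).map f = relStep (R.map f) (X.map f) := by
  have hinj2 : ∀ a ∈ R, ∀ b ∈ R, f a = f b → a = b := by
    intro a ha b hb hab
    have := hinj (a * b⁻¹) (R.mul_mem ha (R.inv_mem hb)) (by rw [map_mul, map_inv, hab, mul_inv_cancel])
    exact mul_inv_eq_one.mp this
  apply le_antisymm
  · rw [Subgroup.map_le_iff_le_comap]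
    apply relStep_le
    intro A hAR hc hXA a ha
    have h1 : A.map f ≤ relStep (R.map f) (X.map f) := by
      apply le_relStep (Subgroup.map_mono hAR)
      · refine ⟨⟨?_⟩⟩
        rintro ⟨_, u, hu, rfl⟩ ⟨_, v, hv, rfl⟩
        apply Subtype.ext
        have := congrArg Subtype.val (hc.is_comm.comm ⟨u, hu⟩ ⟨v, hv⟩)
        change f u * f v = f v * f u
        rw [← map_mul, ← map_mul]
        exact congrArg f this
      · rintro _ ⟨x, hx, rfl⟩
        rw [Subgroup.mem_normalizer_iff]
        intro y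
        have hN := Subgroup.mem_normalizer_iff.mp (hXA hx)
        constructor
        · rintro ⟨u, hu, rfl⟩
          refine ⟨x * u * x⁻¹, (hN u).mp hu, ?_⟩
          simp
        · rintro ⟨u, hu, hue⟩
          refine ⟨x⁻¹ * u * x, (hN _).mpr ?_, ?_⟩
          · have e : x * (x⁻¹ * u * x) * x⁻¹ = u := by group
            rw [e]
            exact hu
          · simp only [map_mul, map_inv]
            rw [hue]
            group
    exact h1 ⟨a, ha, rfl⟩
  · apply relStep_le
    intro B hBR hc hXB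
    -- the preimage of `B` in `R`
    have hB₀ : (B.comap f ⊓ R).map f = B := by
      ext y
      constructor
      · rintro ⟨u, hu, rfl⟩
        exact hu.1
      · intro hy
        obtain ⟨r, hr, rfl⟩ := hBR hy
        exact ⟨r, ⟨hy, hr⟩, rfl⟩
    rw [← hB₀]
    apply Subgroup.map_mono
    apply le_relStep inf_le_right
    · refine ⟨⟨?_⟩⟩
      rintro ⟨u, hu⟩ ⟨v, hv⟩
      apply Subtype.ext
      apply hinj2 _ (R.mul_mem hu.2 hv.2) _ (R.mul_mem hv.2 hu.2)
      rw [map_mul, map_mul]
      exact congrArg Subtype.val (hc.is_comm.comm ⟨f u, hu.1⟩ ⟨f v, hv.1⟩)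
    · intro x hx
      rw [Subgroup.mem_normalizer_iff]
      intro y
      have hN := Subgroup.mem_normalizer_iff.mp (hXB ⟨x, hx, rfl⟩)
      have hxR := hX hx
      constructor
      · rintro ⟨h1, h2⟩
        refine ⟨?_, R.mul_mem (R.mul_mem hxR h2) (R.inv_mem hxR)⟩
        change f (x * y * x⁻¹) ∈ B
        rw [map_mul, map_mul, map_inv]
        exact (hN (f y)).mp h1
      · rintro ⟨h1, h2⟩
        refine ⟨?_, ?_⟩
        · have h3 : f x * f y * (f x)⁻¹ ∈ B := by
            have : f (x * y * x⁻¹) ∈ B := h1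
            rwa [map_mul, map_mul, map_inv] at this
          exact (hN (f y)).mpr h3
        · have e : y = x⁻¹ * (x * y * x⁻¹) * x := by group
          rw [e]
          exact R.mul_mem (R.mul_mem (R.inv_mem hxR) h2) hxR

theorem map_relSeq (f : G →* G') (R : Subgroup G) (hinj : ∀ a ∈ R, f a = 1 → a = 1) (n : ℕ) :
    (relSeq R n).map f = relSeq (R.map f) n := by
  induction n with
  | zero => simp [relSeq]
  | succ n ih =>
    rw [relSeq_succ, relSeq_succ, map_relStep f R _ (relSeq_le R n) hinj, ih]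

/-- The Puig subgroup relative to `R`. -/
def relL (R : Subgroup G) : Subgroup G := ⨅ n : ℕ, relSeq R (2 * n + 1)

/-- The lower Puig subgroup relative to `R`. -/
def relLs (R : Subgroup G) : Subgroup G := ⨆ n : ℕ, relSeq R (2 * n)

theorem mem_relL {R : Subgroup G} {x : G} : x ∈ relL R ↔ ∀ n : ℕ, x ∈ relSeq R (2 * n + 1) := by
  rw [relL, Subgroup.mem_iInf]

theorem relL_le (R : Subgroup G) : relL R ≤ R := by
  intro x hx
  have := mem_relL.mp hx 0
  rwa [show 2 * 0 + 1 = 1 by norm_num, relSeq_one] at this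

theorem map_relL (f : G →* G') (R : Subgroup G) (hinj : ∀ a ∈ R, f a = 1 → a = 1) :
    (relL R).map f = relL (R.map f) := by
  apply le_antisymm
  · rintro _ ⟨x, hx, rfl⟩
    rw [mem_relL]
    intro n
    rw [← map_relSeq f R hinj]
    exact ⟨x, mem_relL.mp hx n, rfl⟩
  · intro y hy
    have h0 := mem_relL.mp hy
    obtain ⟨x, hx, rfl⟩ : ∃ x ∈ relSeq R (2 * 0 + 1), f x = y := by
      have := h0 0
      rw [← map_relSeq f R hinj] at this
      exact this
    have hxR : x ∈ R := relSeq_le R _ hx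
    refine ⟨x, mem_relL.mpr ?_, rfl⟩
    intro n
    have := h0 n
    rw [← map_relSeq f R hinj] at this
    obtain ⟨u, hu, hue⟩ := this
    have huR : u ∈ R := relSeq_le R _ hu
    have e : u = x := by
      have := hinj (u * x⁻¹) (R.mul_mem huR (R.inv_mem hxR)) (by rw [map_mul, map_inv, hue, mul_inv_cancel])
      exact mul_inv_eq_one.mp this
    rwa [← e]

/-- The center of the Puig subgroup relative to `R`. -/
def relZ (R : Subgroup G) : Subgroup G := relL R ⊓ centralizer (relL R : Set G)

theorem map_relZ (f : G →* G') (R : Subgroup G) (hinj : ∀ a ∈ R, f a = 1 → a = 1) :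
    (relZ R).map f = relZ (R.map f) := by
  have hinj2 : ∀ a ∈ R, ∀ b ∈ R, f a = f b → a = b := by
    intro a ha b hb hab
    have := hinj (a * b⁻¹) (R.mul_mem ha (R.inv_mem hb)) (by rw [map_mul, map_inv, hab, mul_inv_cancel])
    exact mul_inv_eq_one.mp this
  apply le_antisymm
  · rintro _ ⟨x, hx, rfl⟩
    refine Subgroup.mem_inf.mpr ⟨?_, ?_⟩
    · rw [← map_relL f R hinj]
      exact ⟨x, hx.1, rfl⟩
    · refine Subgroup.mem_centralizer_iff.mpr ?_
      intro y hy
      rw [SetLike.mem_coe, ← map_relL f R hinj] at hy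
      obtain ⟨u, hu, rfl⟩ := hy
      rw [← map_mul, ← map_mul, Subgroup.mem_centralizer_iff.mp hx.2 u hu]
  · rintro y ⟨hy1, hy2⟩
    rw [SetLike.mem_coe, ← map_relL f R hinj] at hy1
    obtain ⟨x, hx, rfl⟩ := hy1
    refine ⟨x, Subgroup.mem_inf.mpr ⟨hx, ?_⟩, rfl⟩
    refine Subgroup.mem_centralizer_iff.mpr ?_
    intro u hu
    have h1 := Subgroup.mem_centralizer_iff.mp hy2 (f u) (by
      rw [SetLike.mem_coe, ← map_relL f R hinj]
      exact ⟨u, hu, rfl⟩)
    apply hinj2 _ (R.mul_mem (relL_le R hu) (relL_le R hx)) _ (R.mul_mem (relL_le R hx) (relL_le R hu))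
    rw [map_mul, map_mul]
    exact h1

/-- The bridge with the intrinsic Puig step. -/
theorem map_puigStep {R : Subgroup G} (X : Subgroup R) :
    (puigStep X).map R.subtype = relStep R (X.map R.subtype) := by
  apply le_antisymm
  · rw [Subgroup.map_le_iff_le_comap]
    apply sSup_le
    rintro A ⟨hc, hXA⟩ a ha
    have h1 : A.map R.subtype ≤ relStep R (X.map R.subtype) := by
      apply le_relStep (Subgroup.map_subtype_le _)
      · refine ⟨⟨?_⟩⟩
        rintro ⟨_, u, hu, rfl⟩ ⟨_, v, hv, rfl⟩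
        apply Subtype.ext
        exact congrArg (fun t : A => ((t : R) : G)) (hc.is_comm.comm ⟨u, hu⟩ ⟨v, hv⟩)
      · rintro _ ⟨x, hx, rfl⟩
        rw [Subgroup.mem_normalizer_iff]
        intro y
        have hN := Subgroup.mem_normalizer_iff.mp (hXA hx)
        constructor
        · rintro ⟨u, hu, rfl⟩
          exact ⟨x * u * x⁻¹, (hN u).mp hu, by simp⟩
        · rintro ⟨u, hu, hue⟩
          refine ⟨x⁻¹ * u * x, (hN _).mpr ?_, ?_⟩
          · have e : x * (x⁻¹ * u * x) * x⁻¹ = u := by group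
            rw [e]
            exact hu
          · simp only [map_mul, map_inv, Subgroup.subtype_apply] at hue ⊢
            rw [hue]
            group
    exact h1 ⟨a, ha, rfl⟩
  · apply relStep_le
    intro A hAR hc hXA
    have e : (A.subgroupOf R).map R.subtype = A := by
      rw [Subgroup.subgroupOf_map_subtype, inf_eq_left.mpr hAR]
    rw [← e]
    apply Subgroup.map_mono
    apply le_sSup
    refine ⟨?_, ?_⟩
    · refine ⟨⟨?_⟩⟩
      rintro ⟨u, hu⟩ ⟨v, hv⟩
      apply Subtype.ext
      apply Subtype.ext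
      exact congrArg (fun t : A => (t : G)) (hc.is_comm.comm ⟨_, hu⟩ ⟨_, hv⟩)
    · intro x hx
      rw [Subgroup.mem_normalizer_iff]
      intro y
      have hN := Subgroup.mem_normalizer_iff.mp (hXA ⟨x, hx, rfl⟩)
      simp only [Subgroup.mem_subgroupOf, Subgroup.coe_mul, Subgroup.coe_inv, Subgroup.subtype_apply] at hN ⊢
      exact hN _

theorem map_puigSeq (R : Subgroup G) (n : ℕ) : (puigSeq R n).map R.subtype = relSeq R n := by
  induction n with
  | zero => simp [relSeq, puigSeq]
  | succ n ih =>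
    rw [puigSeq_succ, relSeq_succ, map_puigStep, ih]

theorem map_puigSubgroup (R : Subgroup G) : (puigSubgroup R).map R.subtype = relL R := by
  apply le_antisymm
  · rintro _ ⟨x, hx, rfl⟩
    rw [mem_relL]
    intro n
    rw [← map_puigSeq]
    have hx' : x ∈ ⨅ n : ℕ, puigSeq R (2 * n + 1) := hx
    rw [Subgroup.mem_iInf] at hx'
    exact ⟨x, hx' n, rfl⟩
  · intro x hx
    have hxR : x ∈ R := relL_le R hx
    refine ⟨⟨x, hxR⟩, ?_, rfl⟩
    change (⟨x, hxR⟩ : R) ∈ ⨅ n : ℕ, puigSeq R (2 * n + 1)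
    rw [Subgroup.mem_iInf]
    intro n
    have h1 := mem_relL.mp hx n
    rw [← map_puigSeq] at h1
    obtain ⟨u, hu, hue⟩ := h1
    have : u = ⟨x, hxR⟩ := Subtype.ext hue
    rwa [← this]

theorem map_puigLower (R : Subgroup G) : (puigLower R).map R.subtype = relLs R := by
  rw [puigLower, relLs, Subgroup.map_iSup]
  congr 1
  funext n
  exact map_puigSeq R (2 * n)

theorem map_center_puig (R : Subgroup G) :
    ((center ↥(puigSubgroup R)).map (puigSubgroup R).subtype).map R.subtype = relZ R := by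
  apply le_antisymm
  · rintro _ ⟨_, ⟨x, hx, rfl⟩, rfl⟩
    refine Subgroup.mem_inf.mpr ⟨?_, ?_⟩
    · rw [← map_puigSubgroup]
      exact ⟨x, x.2, rfl⟩
    · refine Subgroup.mem_centralizer_iff.mpr ?_
      intro y hy
      rw [SetLike.mem_coe, ← map_puigSubgroup] at hy
      obtain ⟨u, hu, rfl⟩ := hy
      have := Subgroup.mem_center_iff.mp hx ⟨u, hu⟩
      exact congrArg (fun t : puigSubgroup R => ((t : R) : G)) this
  · rintro y ⟨hy1, hy2⟩
    rw [SetLike.mem_coe, ← map_puigSubgroup] at hy1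
    obtain ⟨x, hx, rfl⟩ := hy1
    refine ⟨x, ⟨⟨x, hx⟩, Subgroup.mem_center_iff.mpr ?_, rfl⟩, rfl⟩
    rintro ⟨u, hu⟩
    apply Subtype.ext
    apply Subtype.ext
    have := Subgroup.mem_centralizer_iff.mp hy2 (u : G) (by
      rw [SetLike.mem_coe, ← map_puigSubgroup]
      exact ⟨u, hu, rfl⟩)
    exact this

section Fin

variable [Finite G]

theorem relSeries (R : Subgroup G) :
    (∃ k : ℕ, ∀ n : ℕ, k ≤ n → relSeq R (2 * n) = relLs R ∧ relSeq R (2 * n + 1) = relL R) ∧
      relLs R ≤ relL R ∧ relStep R (relLs R) = relL R ∧ relStep R (relL R) = relLs R := by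
  obtain ⟨-, -, -, ⟨k, hk⟩, h1, h2, h3⟩ := puig_series (G := R)
  refine ⟨⟨k, fun n hn => ?_⟩, ?_, ?_, ?_⟩
  · obtain ⟨h4, h5⟩ := hk n hn
    constructor
    · rw [← map_puigSeq, h4, map_puigLower]
    · rw [← map_puigSeq, h5, map_puigSubgroup]
  · rw [← map_puigLower, ← map_puigSubgroup]
    exact Subgroup.map_mono h1
  · rw [← map_puigLower, ← map_puigStep, h2, map_puigSubgroup]
  · rw [← map_puigSubgroup, ← map_puigStep, h3, map_puigLower]

end Fin

end Rel

universe u

section Main

variable {G : Type u} [Group G] [Finite G] {p : ℕ} [hpf : Fact p.Prime]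

theorem normal_of_map_conj {H : Subgroup G} (h : ∀ g : G, H.map (MulAut.conj g).toMonoidHom = H) : H.Normal := by
  refine ⟨fun x hx g => ?_⟩
  rw [← h g]
  exact ⟨x, hx, rfl⟩

theorem map_conj_normal (T : Subgroup G) [hT : T.Normal] (g : G) : T.map (MulAut.conj g).toMonoidHom = T := by
  ext x
  constructor
  · rintro ⟨t, ht, rfl⟩
    exact hT.conj_mem t ht g
  · intro hx
    refine ⟨g⁻¹ * x * g, ?_, ?_⟩
    · have := hT.conj_mem x hx g⁻¹
      simpa using this
    · simp only [MulEquiv.coe_toMonoidHom, MulAut.conj_apply]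
      group

theorem conj_inj (g : G) : ∀ a ∈ (⊤ : Subgroup G), (MulAut.conj g).toMonoidHom a = 1 → a = 1 := by
  intro a _ h
  simpa [MulAut.conj_apply] using h

theorem relSeq_normal (T : Subgroup G) [hT : T.Normal] (n : ℕ) : (relSeq T n).Normal := by
  apply normal_of_map_conj
  intro g
  have h := map_relSeq (MulAut.conj g).toMonoidHom T (fun a _ h => by simpa [MulAut.conj_apply] using h) n
  rw [map_conj_normal T g] at h
  exact h

theorem relZ_normal (T : Subgroup G) [hT : T.Normal] : (relZ T).Normal := by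
  apply normal_of_map_conj
  intro g
  have h := map_relZ (MulAut.conj g).toMonoidHom T (fun a _ h => by simpa [MulAut.conj_apply] using h)
  rw [map_conj_normal T g] at h
  exact h

theorem relZ_le (R : Subgroup G) : relZ R ≤ R := inf_le_left.trans (relL_le R)

theorem relZ_comm (R : Subgroup G) : IsMulCommutative (relZ R) := by
  refine ⟨⟨?_⟩⟩
  rintro ⟨a, ha⟩ ⟨b, hb⟩
  apply Subtype.ext
  exact (Subgroup.mem_centralizer_iff.mp hb.2 a ha.1)

variable [Group.IsSolvable G]

theorem inf_centralizer_relSeq_le (hR : IsPGroup p (pCore p G)) (n : ℕ) :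
    pCore p G ⊓ centralizer (relSeq (pCore p G) (2 * n + 1) : Set G) ≤ relSeq (pCore p G) (2 * n + 1) := by
  rintro x ⟨hx1, hx2⟩
  set T := pCore p G with hT
  have h1 := centralizer_puigStep_le (R := T) p hR (X := puigSeq T (2 * n)) (puigSeq_normal (2 * n))
  have h2 : (⟨x, hx1⟩ : T) ∈ centralizer ((puigSeq T (2 * n + 1) : Subgroup T) : Set T) := by
    refine Subgroup.mem_centralizer_iff.mpr ?_
    intro y hy
    apply Subtype.ext
    refine Subgroup.mem_centralizer_iff.mp hx2 (y : G) ?_
    rw [SetLike.mem_coe, ← map_puigSeq]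
    exact ⟨y, hy, rfl⟩
  have h3 := h1 h2
  rw [← map_puigSeq]
  exact ⟨⟨x, hx1⟩, h3, rfl⟩

/-- The chain of Puig subgroups of **S1468**. -/
theorem puig_chain (hodd : Odd (Nat.card G)) (hp : p ≠ 2) (hO : pPrimeCore p G = ⊥) (S : Sylow p G) :
    relLs (S : Subgroup G) ≤ relLs (pCore p G) ∧ relLs (pCore p G) ≤ relL (pCore p G) ∧
      relL (pCore p G) ≤ relL (S : Subgroup G) := by
  classical
  set T := pCore p G with hT
  haveI hTn : T.Normal := CfsgLib.PLocal.pCore_normal'
  have hTp : IsPGroup p T := CfsgLib.Solv.pCore_isPGroup p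
  have hTS : T ≤ (S : Subgroup G) := CfsgLib.PLocal.pCore_le_sylow S
  have key : ∀ n : ℕ, relSeq (S : Subgroup G) (2 * n) ≤ relSeq T (2 * n) ∧
      relSeq T (2 * n + 1) ≤ relSeq (S : Subgroup G) (2 * n + 1) := by
    intro n
    induction n with
    | zero =>
      refine ⟨by simp [relSeq], ?_⟩
      simp only [mul_zero, zero_add, relSeq_one]
      exact hTS
    | succ n ih =>
      obtain ⟨ih1, ih2⟩ := ih
      have hstep : relSeq (S : Subgroup G) (2 * (n + 1)) ≤ relSeq T (2 * (n + 1)) := by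
        rw [show 2 * (n + 1) = 2 * n + 1 + 1 by ring, relSeq_succ, relSeq_succ]
        apply relStep_le
        intro A hAS hc hN
        have hN' := ih2.trans hN
        haveI hPn : (relSeq T (2 * n + 1)).Normal := relSeq_normal T _
        have hPp : IsPGroup p (relSeq T (2 * n + 1)) := hTp.to_le (relSeq_le T _)
        have h := (CfsgLib.OOL.abelian_gen_le (p := p) hodd hp (relSeq T (2 * n + 1)) hPp {A} (by
          rintro B rfl
          exact ⟨hc, S.isPGroup'.to_le hAS, hN'⟩)).2 hO (inf_centralizer_relSeq_le hTp n)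
        rw [sSup_singleton] at h
        exact le_relStep h hc hN'
      refine ⟨hstep, ?_⟩
      rw [show 2 * (n + 1) + 1 = 2 * (n + 1) + 1 by ring, relSeq_succ, relSeq_succ]
      apply relStep_le
      intro A hAT hc hN
      exact le_relStep (hAT.trans hTS) hc (hstep.trans hN)
  obtain ⟨⟨k₁, hk₁⟩, -, -, -⟩ := relSeries (S : Subgroup G)
  obtain ⟨⟨k₂, hk₂⟩, h3, -, -⟩ := relSeries T
  have hk := key (max k₁ k₂)
  obtain ⟨e1, e2⟩ := hk₁ _ (le_max_left k₁ k₂)
  obtain ⟨e3, e4⟩ := hk₂ _ (le_max_right k₁ k₂)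
  rw [e1, e3] at hk
  rw [e2, e4] at hk
  exact ⟨hk.1, h3, hk.2⟩

/-- **S1469** core: when `O_{p'}(G) = 1`, the center of the Puig subgroup of a Sylow subgroup is normal. -/
theorem relZ_normal_of_bot (hp : p ≠ 2) : ∀ (n : ℕ) (G : Type u) [Group G] [Finite G] [Group.IsSolvable G],
    Nat.card G = n → Odd n → pPrimeCore p G = ⊥ → ∀ S : Sylow p G, (relZ (S : Subgroup G)).Normal := by
  classical
  have hpp : p.Prime := hpf.out
  intro n
  induction n using Nat.strong_induction_on with
  | _ n ih =>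
  intro G _ _ _ hn hoddn hO S
  have hodd : Odd (Nat.card G) := by rw [hn]; exact hoddn
  obtain ⟨h1, h2, h3⟩ := puig_chain (p := p) hodd hp hO S
  set T := pCore p G with hT
  haveI hTn : T.Normal := CfsgLib.PLocal.pCore_normal'
  have hTp : IsPGroup p T := CfsgLib.Solv.pCore_isPGroup p
  have hTS : T ≤ (S : Subgroup G) := CfsgLib.PLocal.pCore_le_sylow S
  obtain ⟨-, -, hS2, hS1⟩ := relSeries (S : Subgroup G)
  set NS := relL (S : Subgroup G) with hNS
  set MS := relLs (S : Subgroup G) with hMS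
  set Z := relZ (S : Subgroup G) with hZ
  have hZS : Z ≤ (S : Subgroup G) := relZ_le _
  have hZc : IsMulCommutative Z := relZ_comm _
  have hZN : NS ≤ normalizer (Z : Set G) := by
    intro a ha
    apply CfsgLib.PLocal.mem_normalizer_of_conj_le
    intro z hz
    have e : a * z * a⁻¹ = z := by
      rw [Subgroup.mem_centralizer_iff.mp hz.2 a ha]
      group
    rw [e]
    exact hz
  have hZM : Z ≤ MS := by
    rw [← hS1]
    exact le_relStep hZS hZc hZN
  have hZY : Z ≤ relZ T := by
    intro z hz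
    refine Subgroup.mem_inf.mpr ⟨h2 (h1 (hZM hz)), Subgroup.mem_centralizer_iff.mpr ?_⟩
    intro y hy
    exact Subgroup.mem_centralizer_iff.mp hz.2 y (h3 hy)
  haveI hYn : (relZ T).Normal := relZ_normal T
  set V := Subgroup.normalClosure (Z : Set G) with hV
  haveI hVn : V.Normal := Subgroup.normalClosure_normal
  have hVY : V ≤ relZ T := Subgroup.normalClosure_le_normal hZY
  have hZV : Z ≤ V := Subgroup.le_normalClosure
  have hVT : V ≤ T := hVY.trans (relZ_le T)
  have hVp : IsPGroup p V := hTp.to_le hVT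
  have hVc : IsMulCommutative V := by
    refine ⟨⟨?_⟩⟩
    rintro ⟨a, ha⟩ ⟨b, hb⟩
    apply Subtype.ext
    exact congrArg (fun t : relZ T => (t : G)) ((relZ_comm T).is_comm.comm ⟨a, hVY ha⟩ ⟨b, hVY hb⟩)
  have hVM : V ≤ MS := by
    rw [← hS1]
    apply le_relStep (hVT.trans hTS) hVc
    rw [Subgroup.normalizer_eq_top_iff.mpr hVn]
    exact le_top
  set C := centralizer (V : Set G) with hC
  haveI hCn : C.Normal := by rw [hC]; infer_instance
  set π := QuotientGroup.mk' C with hπ
  have hπs : Function.Surjective π := QuotientGroup.mk'_surjective C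
  haveI hcoren : (pCore p (G ⧸ C)).Normal := CfsgLib.PLocal.pCore_normal'
  set H := (pCore p (G ⧸ C)).comap π with hH
  haveI hHn : H.Normal := Subgroup.Normal.comap inferInstance _
  have hNSH : NS ≤ H := by
    rw [← hS2]
    apply relStep_le
    intro A hAS hc hAN a ha
    refine CfsgLib.OOL.quad_mem_pCore (p := p) hodd hp V hVn hVp C ?_ a ?_
    · intro g
      rw [hC, Subgroup.mem_centralizer_iff]
      exact ⟨fun h w hw => (h w hw).symm, fun h w hw => (h w hw).symm⟩
    · intro w hw
      apply CfsgLib.OOL.quad_of_comm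
      have h4 : ⁅w, a⁆ ∈ A := by
        have h5 : w * a * w⁻¹ ∈ A := (mem_normalizer_iff.mp (hAN (hVM hw)) a).mp ha
        rw [commutatorElement_def]
        exact A.mul_mem h5 (A.inv_mem ha)
      rw [commutatorElement_eq_one_iff_mul_comm]
      have := hc.is_comm.comm ⟨_, h4⟩ ⟨a, ha⟩
      exact congrArg Subtype.val this
  have hTH : T ≤ H := by
    intro t ht
    have h4 : T.map π ≤ pCore p (G ⧸ C) := by
      haveI : (T.map π).Normal := Subgroup.Normal.map hTn π hπs
      exact CfsgLib.Solv.le_pCore' _ (hTp.map π)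
    exact h4 ⟨t, ht, rfl⟩
  set S₂ := (S : Subgroup G) ⊓ H with hS₂
  have hTS₂ : T ≤ S₂ := le_inf hTS hTH
  have hNSS₂ : NS ≤ S₂ := le_inf (relL_le _) hNSH
  set N := normalizer (S₂ : Set G) with hN
  have hSN : (S : Subgroup G) ≤ N := by
    intro s hs
    apply CfsgLib.PLocal.mem_normalizer_of_conj_le
    rintro x ⟨hx1, hx2⟩
    exact ⟨(S : Subgroup G).mul_mem ((S : Subgroup G).mul_mem hs hx1) ((S : Subgroup G).inv_mem hs), hHn.conj_mem x hx2 s⟩
  -- the factorization
  have hfact : ∀ g : G, ∃ c ∈ C, ∃ m ∈ N, g = c * m := by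
    intro g
    obtain ⟨Q, hQ⟩ := CfsgLib.PLocal.exists_sylow_inf_normal S hHn
    have h4 := Sylow.normalizer_sup_eq_top Q
    rw [hQ] at h4
    have hg : g ∈ (N ⊔ H : Subgroup G) := by
      rw [show N ⊔ H = ⊤ from h4]
      exact mem_top g
    have hg' : g ∈ ((N ⊔ H : Subgroup G) : Set G) := hg
    rw [Subgroup.mul_normal] at hg'
    obtain ⟨m, hm, h, hh, rfl⟩ := Set.mem_mul.mp hg'
    -- `h = c * s`
    have h5 : π h ∈ pCore p (G ⧸ C) := hh
    have h6 := CfsgLib.PLocal.pCore_le_sylow (S.mapSurjective hπs) h5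
    obtain ⟨s, hs, hse⟩ := h6
    have h7 : h * s⁻¹ ∈ C := by
      rw [← QuotientGroup.eq_one_iff]
      have h8 : π (h * s⁻¹) = 1 := by
        rw [map_mul, map_inv, ← hse, mul_inv_cancel]
      exact h8
    have hsS₂ : s ∈ S₂ := by
      refine ⟨hs, ?_⟩
      have h8 : π s ∈ pCore p (G ⧸ C) := by rw [hse]; exact h5
      exact h8
    refine ⟨m * (h * s⁻¹) * m⁻¹, hCn.conj_mem _ h7 m, m * s, N.mul_mem hm ?_, ?_⟩
    · exact Subgroup.le_normalizer hsS₂
    · group
  by_cases hNtop : N = ⊤
  · -- `S₂` is normal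
    haveI hS₂n : S₂.Normal := Subgroup.normalizer_eq_top_iff.mp hNtop
    have hS₂T : S₂ ≤ T := CfsgLib.Solv.le_pCore' S₂ (S.isPGroup'.to_le inf_le_left)
    have hNST : NS ≤ T := hNSS₂.trans hS₂T
    have hseq : ∀ m : ℕ, NS ≤ relSeq T (2 * m + 1) := by
      intro m
      induction m with
      | zero =>
        simp only [mul_zero, zero_add, relSeq_one]
        exact hNST
      | succ m ihm =>
        have h4 : relSeq T (2 * m + 1 + 1) ≤ MS := by
          rw [relSeq_succ, ← hS1]
          apply relStep_le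
          intro A hAT hc hAN
          exact le_relStep (hAT.trans hTS) hc (ihm.trans hAN)
        rw [show 2 * (m + 1) + 1 = 2 * m + 1 + 1 + 1 by ring, relSeq_succ]
        have h5 : NS = relStep (S : Subgroup G) MS := hS2.symm
        rw [h5]
        apply relStep_le
        intro A hAS hc hAN
        have hAN' : A ≤ NS := by
          rw [← hS2]
          exact le_relStep hAS hc hAN
        exact le_relStep (hAN'.trans hNST) hc (h4.trans hAN)
    have hLe : NS = relL T := by
      apply le_antisymm _ h3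
      intro x hx
      exact mem_relL.mpr fun m => hseq m hx
    have hZe : Z = relZ T := by
      rw [hZ, relZ, relZ, ← hNS, hLe]
    rw [hZe]
    exact relZ_normal T
  · -- induction in `N`
    have hcardN : Nat.card N < n := by
      rw [← hn]
      exact lt_of_le_of_ne (Subgroup.card_le_card_group N) (fun h => hNtop (Subgroup.eq_top_of_card_eq N h))
    have hOddN : Odd (Nat.card N) := Odd.of_dvd_nat hodd (Subgroup.card_subgroup_dvd_card N)
    have hON : pPrimeCore p N = ⊥ := by
      rw [eq_bot_iff]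
      intro r hr
      rw [Subgroup.mem_bot]
      haveI hRn : (pPrimeCore p N).Normal := CfsgLib.PLocal.pPrimeCore_normal'
      have hRc : (Nat.card (pPrimeCore p N)).Coprime p := CfsgLib.Solv.pPrimeCore_coprime p
      have hdisj : ∀ u ∈ pPrimeCore p N, (u : G) ∈ S₂ → u = 1 := by
        intro u hu huS
        have hS₂p : IsPGroup p S₂ := S.isPGroup'.to_le inf_le_left
        obtain ⟨k, hk⟩ := hS₂p ⟨u, huS⟩
        have h4 : (u : G) ^ p ^ k = 1 := congrArg Subtype.val hk
        have h5 : u ^ p ^ k = 1 := Subtype.ext h4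
        have h6 : orderOf u ∣ p ^ k := orderOf_dvd_of_pow_eq_one h5
        have h7 : orderOf (⟨u, hu⟩ : pPrimeCore p N) ∣ Nat.card (pPrimeCore p N) := orderOf_dvd_natCard _
        rw [Subgroup.orderOf_mk] at h7
        have h8 : Nat.Coprime (orderOf u) (p ^ k) := Nat.Coprime.coprime_dvd_left h7 (Nat.Coprime.pow_right k hRc)
        have h9 := Nat.Coprime.eq_one_of_dvd h8 h6
        exact orderOf_eq_one_iff.mp h9
      -- `r` centralizes `S₂`
      have hrc : ∀ t ∈ S₂, (r : G) * t = t * r := by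
        intro t ht
        have htN : t ∈ N := Subgroup.le_normalizer ht
        set t' : N := ⟨t, htN⟩ with ht'
        have h5 : ⁅r, t'⁆ ∈ pPrimeCore p N := by
          have h6 := hRn.conj_mem _ ((pPrimeCore p N).inv_mem hr) t'
          have e : ⁅r, t'⁆ = r * (t' * r⁻¹ * t'⁻¹) := by
            rw [commutatorElement_def]
            group
          rw [e]
          exact (pPrimeCore p N).mul_mem hr h6
        have h7 : ((⁅r, t'⁆ : N) : G) ∈ S₂ := by
          have e : ((⁅r, t'⁆ : N) : G) = ((r : G) * t * (r : G)⁻¹) * t⁻¹ := by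
            rw [commutatorElement_def]
            simp [ht']
          rw [e]
          exact S₂.mul_mem ((mem_normalizer_iff.mp r.2 t).mp ht) (S₂.inv_mem ht)
        have h8 := hdisj _ h5 h7
        have h9 := commutatorElement_eq_one_iff_mul_comm.mp h8
        exact congrArg Subtype.val h9
      have hrT : (r : G) ∈ T := by
        apply CfsgLib.Solv.centralizer_pCore_le (G := G) p hO
        refine Subgroup.mem_centralizer_iff.mpr ?_
        intro t ht
        exact (hrc t (hTS₂ ht)).symm
      exact hdisj r hr (hTS₂ hrT)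
    have hS' := ih (Nat.card N) hcardN N rfl hOddN hON (S.subtype hSN)
    have hm : (relZ ((S.subtype hSN : Sylow p N) : Subgroup N)).map N.subtype = Z := by
      rw [map_relZ N.subtype _ (fun a _ h => by exact Subtype.ext h)]
      congr 1
      rw [Sylow.coe_subtype, Subgroup.subgroupOf_map_subtype, inf_eq_left.mpr hSN]
    have hNZ : ∀ m ∈ N, ∀ z ∈ Z, m * z * m⁻¹ ∈ Z := by
      intro m hm' z hz
      rw [← hm] at hz ⊢
      obtain ⟨z', hz', rfl⟩ := hz
      exact ⟨(⟨m, hm'⟩ : N) * z' * (⟨m, hm'⟩ : N)⁻¹, hS'.conj_mem z' hz' _, rfl⟩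
    refine ⟨fun z hz g => ?_⟩
    obtain ⟨c, hc, m, hm', rfl⟩ := hfact g
    have h4 := hNZ m hm' z hz
    have h5 := Subgroup.mem_centralizer_iff.mp hc _ (hZV h4)
    have e : c * m * z * (c * m)⁻¹ = c * (m * z * m⁻¹) * c⁻¹ := by group
    rw [e, ← h5]
    simpa using h4

end Main

/-- **S1468** core. -/
theorem puig_chain_stmt {G : Type u} [Group G] [Finite G] [Group.IsSolvable G] {p : ℕ} [hpf : Fact p.Prime]
    (hodd : Odd (Nat.card G)) (hp : p ≠ 2) (hO : pPrimeCore p G = ⊥) (S : Sylow p G) :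
    (puigLower ↥(S : Subgroup G)).map (S : Subgroup G).subtype ≤ (puigLower ↥(pCore p G)).map (pCore p G).subtype ∧
      (puigLower ↥(pCore p G)).map (pCore p G).subtype ≤ (puigSubgroup ↥(pCore p G)).map (pCore p G).subtype ∧
      (puigSubgroup ↥(pCore p G)).map (pCore p G).subtype ≤ (puigSubgroup ↥(S : Subgroup G)).map (S : Subgroup G).subtype := by
  rw [map_puigLower, map_puigLower, map_puigSubgroup, map_puigSubgroup]
  exact puig_chain (p := p) hodd hp hO S

/-- **S1469** core. -/
theorem puig_center_stmt {G : Type u} [Group G] [Finite G] [Group.IsSolvable G] {p : ℕ} [hpf : Fact p.Prime]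
    (hodd : Odd (Nat.card G)) (hp : p ≠ 2) (S : Sylow p G) :
    pPrimeCore p G ⊔ normalizer ((((center ↥(puigSubgroup ↥(S : Subgroup G))).map (puigSubgroup ↥(S : Subgroup G)).subtype).map (S : Subgroup G).subtype : Subgroup G) : Set G) = ⊤ ∧
      (pPrimeCore p G = ⊥ → (((center ↥(puigSubgroup ↥(S : Subgroup G))).map (puigSubgroup ↥(S : Subgroup G)).subtype).map (S : Subgroup G).subtype).Normal) := by
  classical
  rw [map_center_puig]
  refine ⟨?_, fun hO => relZ_normal_of_bot hp _ G rfl hodd hO S⟩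
  set O := pPrimeCore p G with hO
  haveI hOn : O.Normal := CfsgLib.PLocal.pPrimeCore_normal'
  have hOc : (Nat.card O).Coprime p := CfsgLib.Solv.pPrimeCore_coprime p
  set f := QuotientGroup.mk' O with hf
  have hfs : Function.Surjective f := QuotientGroup.mk'_surjective O
  have hoddQ : Odd (Nat.card (G ⧸ O)) := Odd.of_dvd_nat hodd (Subgroup.card_quotient_dvd_card O)
  have hbot : pPrimeCore p (G ⧸ O) = ⊥ := CfsgLib.Solv.pPrimeCore_quotient_eq_bot p
  have hinj : ∀ a ∈ (S : Subgroup G), f a = 1 → a = 1 := by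
    intro a ha hfa
    have h1 : a ∈ O := by
      rw [← QuotientGroup.eq_one_iff]
      exact hfa
    exact (Subgroup.mem_bot.mp (by
      rw [← CfsgLib.PLocal.inf_eq_bot_of_p_coprime S.isPGroup' hOc]
      exact Subgroup.mem_inf.mpr ⟨ha, h1⟩))
  let S' : Sylow p (G ⧸ O) := S.mapSurjective hfs
  have hS' : (S' : Subgroup (G ⧸ O)) = (S : Subgroup G).map f := rfl
  haveI hn := relZ_normal_of_bot (p := p) hp _ (G ⧸ O) rfl hoddQ hbot S'
  have hm : (relZ (S : Subgroup G)).map f = relZ (S' : Subgroup (G ⧸ O)) := by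
    rw [map_relZ f _ hinj, hS']
  set Z := relZ (S : Subgroup G) with hZ
  have hZp : IsPGroup p Z := S.isPGroup'.to_le (relZ_le _)
  rw [eq_top_iff]
  intro g _
  obtain ⟨o, ho, hn'⟩ := CfsgLib.PLocal.exists_normalizing_lift (O := O) (Q := Z) (g := g) hOc hZp (by
    intro x hx
    have h1 : f (g * x * g⁻¹) ∈ Z.map f := by
      rw [hm, map_mul, map_mul, map_inv]
      apply hn.conj_mem
      rw [← hm]
      exact ⟨x, hx, rfl⟩
    obtain ⟨z, hz, hze⟩ := h1
    have h2 : g * x * g⁻¹ * z⁻¹ ∈ O := by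
      rw [← QuotientGroup.eq_one_iff]
      have : f (g * x * g⁻¹ * z⁻¹) = 1 := by
        rw [map_mul, map_inv, hze, mul_inv_cancel]
      exact this
    have e : g * x * g⁻¹ = (g * x * g⁻¹ * z⁻¹) * z := by group
    rw [e]
    exact Subgroup.mul_mem _ (Subgroup.mem_sup_left h2) (Subgroup.mem_sup_right hz))
  have e : g = o * (o⁻¹ * g) := by group
  rw [e]
  exact Subgroup.mul_mem _ (Subgroup.mem_sup_left ho) (Subgroup.mem_sup_right hn')

end CfsgLib.OOL.Puig
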